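import Mathlib
import Cfsg.Agent.Lib.Helper50.SubfMax

/-!
# S5798 piece S6-TWO: the characteristic 2 instance `le_H1_two6` (n = 6)

Copy of `Cfsg.Agent.Lib.Helper50.le_H1_two` with `7 ≤ n` weakened to `6 ≤ n`: the last step only
needs a non-zero vector `x0` supported on the coordinates `4, 5` with `(m⁻¹ x0)_1 = 0`
(two unknowns, one equation).
-/

set_option autoImplicit false

namespace Cfsg.Agent.Lib.Helper2.S6

open Matrix Cfsg.Agent.Lib.Helper97 Cfsg.Agent.Lib.Helper50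

/-- A non-zero vector supported on the coordinates 4, 5 whose image under `g` has vanishing
coordinate 1. -/
theorem exists_x0_two {F : Type*} [Field F] {n : ℕ} (hn : 6 ≤ n) (g : Matrix (Fin n) (Fin n) F) :
    ∃ x0 : Fin n → F, x0 ≠ 0 ∧ (∀ k : Fin n, k.val < 4 → x0 k = 0) ∧
      (g *ᵥ x0) ⟨1, by omega⟩ = 0 := by
  by_cases h4 : g ⟨1, by omega⟩ ⟨4, by omega⟩ = 0
  · refine ⟨Pi.single ⟨4, by omega⟩ 1, ?_, ?_, ?_⟩
    · intro h
      have h1 := congrFun h ⟨4, by omega⟩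
      rw [Pi.single_eq_same, Pi.zero_apply] at h1
      exact one_ne_zero h1
    · intro k hk
      have h4' : k ≠ ⟨4, by omega⟩ := by intro h; rw [h] at hk; simp at hk
      simp [h4']
    · rw [Matrix.mulVec_single_one]
      simpa [Matrix.col_apply] using h4
  · refine ⟨g ⟨1, by omega⟩ ⟨5, by omega⟩ • Pi.single ⟨4, by omega⟩ 1 -
      g ⟨1, by omega⟩ ⟨4, by omega⟩ • Pi.single ⟨5, by omega⟩ 1, ?_, ?_, ?_⟩
    · intro h
      have h1 := congrFun h ⟨5, by omega⟩
      simp [Pi.single_apply, Fin.ext_iff] at h1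
      exact h4 h1
    · intro k hk
      have h4' : k ≠ ⟨4, by omega⟩ := by intro h; rw [h] at hk; simp at hk
      have h5' : k ≠ ⟨5, by omega⟩ := by intro h; rw [h] at hk; simp at hk
      simp [h4', h5']
    · rw [Matrix.mulVec_sub, Matrix.mulVec_smul, Matrix.mulVec_smul, Matrix.mulVec_single_one,
        Matrix.mulVec_single_one]
      simp only [Pi.sub_apply, Pi.smul_apply, Matrix.col_apply, smul_eq_mul]
      ring

variable {F : Type*} [Field F] [Fintype F]

/-- The characteristic 2 instance of the dihedral argument, for `6 ≤ n`. -/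
theorem le_H1_two_ge6 {n : ℕ} (hn : 6 ≤ n) {F₀ : Subfield F} {M : Subgroup (GL (Fin n) F)}
    (hHM : H1 (Fin n) F₀ ⊓ Cfsg.Geo.specialLinear (Fin n) F ≤ M)
    (hGPl : ∀ m ∈ M, ¬ GP F₀ m → m ∈ H1 (Fin n) F₀)
    (hsq : ∀ c : F, c ^ 2 ∈ F₀ → c ∈ F₀) (h2 : (2 : F) = 0) : M ≤ H1 (Fin n) F₀ := by
  set i0 : Fin n := ⟨0, by omega⟩ with hi0
  set i1 : Fin n := ⟨1, by omega⟩ with hi1
  set i2 : Fin n := ⟨2, by omega⟩ with hi2
  set i3 : Fin n := ⟨3, by omega⟩ with hi3
  have n01 : i0 ≠ i1 := by rw [hi0, hi1]; simp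
  have n02 : i0 ≠ i2 := by rw [hi0, hi2]; simp
  have n03 : i0 ≠ i3 := by rw [hi0, hi3]; simp
  have n12 : i1 ≠ i2 := by rw [hi1, hi2]; simp
  have n13 : i1 ≠ i3 := by rw [hi1, hi3]; simp
  have n23 : i2 ≠ i3 := by rw [hi2, hi3]; simp
  have h01 : (Pi.single i1 (1 : F) : Fin n → F) ⬝ᵥ Pi.single i0 1 = 0 :=
    single_dot_single_ne n01 1 1
  have h23 : (Pi.single i3 (1 : F) : Fin n → F) ⬝ᵥ Pi.single i2 1 = 0 :=
    single_dot_single_ne n23 1 1
  set s0 : Fin n → F := Pi.single i0 1 with hs0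
  set s2 : Fin n → F := Pi.single i2 1 with hs2
  have s0_0 : s0 i0 = 1 := by rw [hs0, Pi.single_eq_same]
  have s0_1 : s0 i1 = 0 := by rw [hs0, Pi.single_eq_of_ne (Ne.symm n01)]
  have s0_2 : s0 i2 = 0 := by rw [hs0, Pi.single_eq_of_ne (Ne.symm n02)]
  have s0_3 : s0 i3 = 0 := by rw [hs0, Pi.single_eq_of_ne (Ne.symm n03)]
  have s2_0 : s2 i0 = 0 := by rw [hs2, Pi.single_eq_of_ne n02]
  have s2_1 : s2 i1 = 0 := by rw [hs2, Pi.single_eq_of_ne n12]
  have s2_2 : s2 i2 = 1 := by rw [hs2, Pi.single_eq_same]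
  have s2_3 : s2 i3 = 0 := by rw [hs2, Pi.single_eq_of_ne (Ne.symm n23)]
  set b0 : GL (Fin n) F := tvG s0 (Pi.single i1 1) h01 with hb0
  set c0 : GL (Fin n) F := tvG s2 (Pi.single i3 1) h23 with hc0
  set a : GL (Fin n) F := b0 * c0 with ha
  have hbmv : ∀ y : Fin n → F, (b0 : Matrix (Fin n) (Fin n) F) *ᵥ y = y + y i1 • s0 := by
    intro y
    rw [hb0, tvG_val, tv_mulVec, single_dotProduct, one_mul]
  have hcmv : ∀ y : Fin n → F, (c0 : Matrix (Fin n) (Fin n) F) *ᵥ y = y + y i3 • s2 := by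
    intro y
    rw [hc0, tvG_val, tv_mulVec, single_dotProduct, one_mul]
  have hamv : ∀ y : Fin n → F, (a : Matrix (Fin n) (Fin n) F) *ᵥ y =
      y + y i3 • s2 + y i1 • s0 := by
    intro y
    rw [ha, Units.val_mul, ← Matrix.mulVec_mulVec, hcmv, hbmv, Pi.add_apply, Pi.smul_apply,
      s2_1, smul_zero, add_zero]
  have hb0M : b0 ∈ M := (rat_TM hHM (ratV_single F₀ i0 F₀.one_mem)
    (ratV_single F₀ i1 F₀.one_mem) h01).mem
  have hc0M : c0 ∈ M := (rat_TM hHM (ratV_single F₀ i2 F₀.one_mem)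
    (ratV_single F₀ i3 F₀.one_mem) h23).mem
  have haM : a ∈ M := M.mul_mem hb0M hc0M
  have hsmul2 : ∀ (x : F) (v : Fin n → F), x • v + x • v = 0 := by
    intro x v
    rw [← two_smul F (x • v), h2, zero_smul]
  have hb2 : b0 * b0 = 1 := by
    apply Units.ext
    apply ext_mulVec_single
    intro k
    rw [Units.val_mul, ← Matrix.mulVec_mulVec, hbmv, hbmv, Units.val_one, Matrix.one_mulVec,
      Pi.add_apply, Pi.smul_apply, s0_1, smul_zero, add_zero, add_assoc, hsmul2, add_zero]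
  have ha2 : a * a = 1 := by
    apply Units.ext
    apply ext_mulVec_single
    intro k
    rw [Units.val_mul, ← Matrix.mulVec_mulVec, hamv, hamv, Units.val_one, Matrix.one_mulVec]
    simp only [Pi.add_apply, Pi.smul_apply, s0_1, s0_3, s2_1, s2_3, smul_zero, add_zero]
    have h5 := hsmul2 ((Pi.single k 1 : Fin n → F) i3) s2
    have h6 := hsmul2 ((Pi.single k 1 : Fin n → F) i1) s0
    calc (Pi.single k 1 : Fin n → F) + (Pi.single k 1 : Fin n → F) i3 • s2
          + (Pi.single k 1 : Fin n → F) i1 • s0 + (Pi.single k 1 : Fin n → F) i3 • s2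
          + (Pi.single k 1 : Fin n → F) i1 • s0
        = (Pi.single k 1 : Fin n → F) + ((Pi.single k 1 : Fin n → F) i3 • s2
          + (Pi.single k 1 : Fin n → F) i3 • s2) + ((Pi.single k 1 : Fin n → F) i1 • s0
          + (Pi.single k 1 : Fin n → F) i1 • s0) := by abel
      _ = Pi.single k 1 := by rw [h5, h6, add_zero, add_zero]
  refine le_H1_of_involutions hGPl hsq a b0 haM hb0M ha2 hb2 ?_ ?_ (Pi.single i1 1)
    (ratV_single F₀ _ F₀.one_mem) (single_ne_zero_fin _) ?_ ?_ ?_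
  · intro h
    have h1 := congrFun (congrFun h i0) i1
    rw [hb0, tvG_val, tv, Matrix.add_apply, Matrix.add_apply, Matrix.vecMulVec_apply, s0_0,
      Pi.single_eq_same, Matrix.one_apply_ne n01, Matrix.zero_apply, zero_add, mul_one,
      add_zero] at h1
    exact one_ne_zero h1
  · intro z haz hGP
    have h3 : (a : Matrix (Fin n) (Fin n) F) *ᵥ s0 = s0 := by
      rw [hamv, s0_3, s0_1, zero_smul, zero_smul, add_zero, add_zero]
    have h1 : (a : Matrix (Fin n) (Fin n) F) *ᵥ ((z : Matrix (Fin n) (Fin n) F) *ᵥ s0) =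
        (z : Matrix (Fin n) (Fin n) F) *ᵥ s0 := by
      rw [Matrix.mulVec_mulVec, ← Units.val_mul, haz, Units.val_mul, ← Matrix.mulVec_mulVec, h3]
    rw [hamv] at h1
    have h4 := congrFun h1 i0
    simp only [Pi.add_apply, Pi.smul_apply, s2_0, s0_0, smul_eq_mul, mul_zero, mul_one,
      add_zero] at h4
    have h5 : ((z : Matrix (Fin n) (Fin n) F) *ᵥ s0) i1 = 0 := by
      linear_combination h4
    apply hGP s0 (Pi.single i1 1) (ratV_single F₀ _ F₀.one_mem) (ratV_single F₀ _ F₀.one_mem)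
      (single_ne_zero_fin _) (single_ne_zero_fin _)
    rw [single_dotProduct, one_mul, h5]
  · intro w hw
    rw [hbmv] at hw
    have h4 := congrFun hw i0
    simp only [Pi.add_apply, Pi.smul_apply, s0_0, smul_eq_mul, mul_one] at h4
    rw [single_dotProduct, one_mul]
    linear_combination h4
  · intro g hg
    have hmv : ∀ y : Fin n → F, (a : Matrix (Fin n) (Fin n) F) *ᵥ y =
        y + (((g⁻¹ : GL (Fin n) F) : Matrix (Fin n) (Fin n) F) *ᵥ y) i1 •
          ((g : Matrix (Fin n) (Fin n) F) *ᵥ s0) := by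
      intro y
      rw [hg, Units.val_mul, Units.val_mul, ← Matrix.mulVec_mulVec, ← Matrix.mulVec_mulVec,
        hbmv, Matrix.mulVec_add, Matrix.mulVec_smul, gl_mulVec_inv]
    have e1 := hmv (Pi.single i1 1)
    have e3 := hmv (Pi.single i3 1)
    rw [hamv] at e1 e3
    rw [Pi.single_eq_same, Pi.single_eq_of_ne (Ne.symm n13), zero_smul, add_zero, one_smul,
      add_right_inj] at e1
    rw [Pi.single_eq_same, Pi.single_eq_of_ne n13, zero_smul, add_zero, one_smul,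
      add_right_inj] at e3
    have f1 := congrFun e1 i0
    have f2 := congrFun e1 i2
    have f3 := congrFun e3 i2
    rw [Pi.smul_apply, smul_eq_mul, s0_0] at f1
    rw [Pi.smul_apply, smul_eq_mul, s0_2] at f2
    rw [Pi.smul_apply, smul_eq_mul, s2_2] at f3
    have hα : (((g⁻¹ : GL (Fin n) F) : Matrix (Fin n) (Fin n) F) *ᵥ Pi.single i1 1) i1 ≠ 0 := by
      intro h
      rw [h, zero_mul] at f1
      exact one_ne_zero f1
    have hw2 : ((g : Matrix (Fin n) (Fin n) F) *ᵥ s0) i2 = 0 := by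
      rcases mul_eq_zero.mp f2.symm with h | h
      · exact absurd h hα
      · exact h
    rw [hw2, mul_zero] at f3
    exact one_ne_zero f3
  · intro m
    obtain ⟨x0, hx0, hsupp, h1⟩ :=
      exists_x0_two hn ((m⁻¹ : GL (Fin n) F) : Matrix (Fin n) (Fin n) F)
    refine ⟨x0, hx0, ?_, ?_⟩
    · rw [hamv, hsupp i3 (by rw [hi3]; simp), hsupp i1 (by rw [hi1]; simp), zero_smul,
        zero_smul, add_zero, add_zero]
    · rw [hbmv]
      have h5 : (((m⁻¹ : GL (Fin n) F) : Matrix (Fin n) (Fin n) F) *ᵥ x0) i1 = 0 := h1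
      rw [h5, zero_smul, add_zero]


/-- S6-TWO: the characteristic 2 instance for `n = 6`. -/
theorem le_H1_two6 {F : Type*} [Field F] [Fintype F] {F₀ : Subfield F}
    {M : Subgroup (Matrix.GeneralLinearGroup (Fin 6) F)}
    (hHM : Cfsg.Agent.Lib.Helper50.H1 (Fin 6) F₀ ⊓ Cfsg.Geo.specialLinear (Fin 6) F ≤ M)
    (hGPl : ∀ m ∈ M, ¬ Cfsg.Agent.Lib.Helper50.GP F₀ m → m ∈ Cfsg.Agent.Lib.Helper50.H1 (Fin 6) F₀)
    (hsq : ∀ c : F, c ^ 2 ∈ F₀ → c ∈ F₀) (h2 : (2 : F) = 0) :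
    M ≤ Cfsg.Agent.Lib.Helper50.H1 (Fin 6) F₀ :=
  le_H1_two_ge6 (le_refl 6) hHM hGPl hsq h2

end Cfsg.Agent.Lib.Helper2.S6
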