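import Cfsg.Agent.Lib.Helper10.LC0

/-! # Expansion of a vector in an orthogonal frame (piece A5 of the lattice characterisation) -/

set_option autoImplicit false

namespace Cfsg.Agent.Lib.Helper2.LCA5

open Matrix Cfsg.Agent.Lib.Helper10.LC

theorem frame_expand {B : Matrix (Fin 24) (Fin 24) ℤ} (hB : Hyp B)
    (hoc : ∀ s : Finset (Fin 24 → ℤ), (∀ x ∈ s, x ≠ 0) →
      (∀ x ∈ s, ∀ y ∈ s, x ≠ y → bf B x y = 0) → s.card ≤ 24)
    (e : Fin 24 → (Fin 24 → ℤ)) (he8 : ∀ i, qf B (e i) = 8)
    (heo : ∀ i j, i ≠ j → bf B (e i) (e j) = 0) (x : Fin 24 → ℤ) :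
    (8 : ℤ) • x = ∑ i, bf B x (e i) • e i := by
  classical
  obtain ⟨r, hr⟩ : ∃ r, r = (8 : ℤ) • x - ∑ i, bf B x (e i) • e i := ⟨_, rfl⟩
  have hrj : ∀ j, bf B r (e j) = 0 := by
    intro j
    rw [hr, bf_sub_left, bf_smul_left, bf_sum_left, Finset.sum_eq_single j]
    · rw [bf_self, he8]
      ring
    · intro i _ hij
      rw [heo i j hij, mul_zero]
    · intro h
      exact absurd (Finset.mem_univ j) h
  have hinj : Function.Injective e := by
    intro i j hij
    by_contra hne
    have h1 := heo i j hne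
    rw [← hij, bf_self, he8] at h1
    omega
  have he0 : ∀ i, e i ≠ 0 := by
    intro i h0
    have h1 := he8 i
    rw [h0, qf_zero] at h1
    omega
  by_contra hne
  have hr0 : r ≠ 0 := by
    intro h0
    apply hne
    rw [h0] at hr
    exact sub_eq_zero.mp hr.symm
  have hre : ∀ i, r ≠ e i := by
    intro i h
    have h1 := hrj i
    rw [h, bf_self, he8] at h1
    omega
  have hcard := hoc (insert r (Finset.univ.image e)) (by
    intro y hy
    rw [Finset.mem_insert] at hy
    rcases hy with rfl | hy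
    · exact hr0
    · obtain ⟨i, -, rfl⟩ := Finset.mem_image.mp hy
      exact he0 i) (by
    intro y hy z hz hyz
    rw [Finset.mem_insert] at hy hz
    rcases hy with rfl | hy <;> rcases hz with rfl | hz
    · exact absurd rfl hyz
    · obtain ⟨i, -, rfl⟩ := Finset.mem_image.mp hz
      exact hrj i
    · obtain ⟨i, -, rfl⟩ := Finset.mem_image.mp hy
      rw [bf_comm hB.symm]
      exact hrj i
    · obtain ⟨i, -, rfl⟩ := Finset.mem_image.mp hy
      obtain ⟨j, -, rfl⟩ := Finset.mem_image.mp hz
      exact heo i j (fun h => hyz (by rw [h])))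
  rw [Finset.card_insert_of_notMem, Finset.card_image_of_injective _ hinj, Finset.card_univ,
    Fintype.card_fin] at hcard
  · omega
  · simp only [Finset.mem_image, Finset.mem_univ, true_and, not_exists]
    intro i h
    exact hre i h.symm

end Cfsg.Agent.Lib.Helper2.LCA5
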