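import Cfsg.Agent.Lib.Helper47.QuadDefs

set_option autoImplicit false

/-! Piece MINUSTYP of the S2674/S2675 project (poster helper47): value counts of
`quadFormMinus` from those of `quadFormPlus` and the anisotropic plane. -/

namespace Cfsg.Agent.Lib.Helper2.QuadMINUSTYP

open Polynomial Module Cfsg.Agent.Lib.Helper47

universe u

/-- the coordinates of the anisotropic plane -/
def e0 (F : Type u) : F × F ≃ ((Fin 0 ⊕ Fin 0) ⊕ Fin 2 → F) where
  toFun z := Sum.elim (fun y => Sum.elim (fun i => i.elim0) (fun i => i.elim0) y) ![z.1, z.2]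
  invFun v := (v (Sum.inr 0), v (Sum.inr 1))
  left_inv z := by simp
  right_inv v := by
    funext x
    rcases x with (x | x) | x
    · exact x.elim0
    · exact x.elim0
    · fin_cases x <;> rfl

/-- splitting off the anisotropic plane -/
def e1 (F : Type u) (j : ℕ) :
    (Fin (j + 1) ⊕ Fin (j + 1) → F) × (F × F) ≃ ((Fin (j + 1) ⊕ Fin (j + 1)) ⊕ Fin 2 → F) where
  toFun x := Sum.elim x.1 ![x.2.1, x.2.2]
  invFun v := (fun y => v (Sum.inl y), (v (Sum.inr 0), v (Sum.inr 1)))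
  left_inv x := by simp
  right_inv v := by
    funext y
    rcases y with y | y
    · rfl
    · fin_cases y <;> rfl

-- PIECE MINUSTYP
theorem isTyp_quadFormMinus_of {F : Type u} [Field F] [Fintype F] (k : ℕ) (a c : F)
    (hprod : ∀ {V₁ V₂ : Type u} [Finite V₁] [Finite V₂] (Q₁ : V₁ → F) (Q₂ : V₂ → F)
      {k₁ k₂ : ℕ} {ε₁ ε₂ : ℤ}, IsTyp Q₁ k₁ ε₁ → IsTyp Q₂ k₂ ε₂ →
      IsTyp (fun x : V₁ × V₂ => Q₁ x.1 + Q₂ x.2) (k₁ + k₂ + 1) (ε₁ * ε₂))
    (hplus : ∀ j : ℕ, IsTyp (Cfsg.quadFormPlus (j + 1) F) j 1)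
    (haniso : IsTyp (fun v : F × F => v.1 ^ 2 + a * v.1 * v.2 + c * v.2 ^ 2) 0 (-1)) :
    IsTyp (Cfsg.quadFormMinus k F a c) k (-1) := by
  cases k with
  | zero =>
    refine IsTyp.of_equiv (e0 F) (fun v => ?_) haniso
    simp [Cfsg.quadFormMinus, e0]
  | succ j =>
    have h1 := hprod (Cfsg.quadFormPlus (j + 1) F)
      (fun v : F × F => v.1 ^ 2 + a * v.1 * v.2 + c * v.2 ^ 2) (hplus j) haniso
    rw [one_mul] at h1
    refine IsTyp.of_equiv (e1 F j) (fun v => ?_) h1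
    simp [Cfsg.quadFormMinus, Cfsg.quadFormPlus, e1]

end Cfsg.Agent.Lib.Helper2.QuadMINUSTYP
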