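import Mathlib
import Cfsg.Agent.Lib.Helper48.StB

set_option autoImplicit false

/-! Piece MONU for S2401 (helper2 for helper48): a monomial element whose matrix is upper
triangular has trivial permutation. -/

namespace Cfsg.Agent.Lib.Helper48.St

open Cfsg.Agent.Lib.Helper48 Matrix

variable {K : Type*} [Field K] {G : Type*} [Group G] {n : ℕ}
variable {X : Fin n → Fin n → K → G}

private theorem h2_perm_le_one (σ : Equiv.Perm (Fin n)) (h : ∀ k, σ k ≤ k) : σ = 1 := by
  have key : ∀ N : ℕ, ∀ k : Fin n, k.val ≤ N → σ k = k := by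
    intro N
    induction N with
    | zero =>
      intro k hk
      have h2 : (σ k).val ≤ k.val := h k
      apply Fin.ext
      omega
    | succ N ih =>
      intro k hk
      by_contra hne
      have h1 : σ k < k := lt_of_le_of_ne (h k) hne
      have h2 : σ (σ k) = σ k := ih (σ k) (by have : (σ k).val < k.val := h1; omega)
      exact hne (σ.injective h2)
  apply Equiv.ext
  intro k
  simp [key k.val k le_rfl]

theorem mon_upper (hn : 2 ≤ n) (π : G →* Matrix.SpecialLinearGroup (Fin n) K)
    (hπ : ∀ i j (hij : i ≠ j) t, π (X i j t) = Matrix.SpecialLinearGroup.transvection hij t)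
    {ν : G} {σ : Equiv.Perm (Fin n)} {m : Fin n → K} (hν : IsMon X ν σ m)
    (hU : ∀ a b : Fin n, b < a → (π ν : Matrix (Fin n) (Fin n) K) a b = 0) : σ = 1 := by
  apply h2_perm_le_one
  intro k
  by_contra hlt
  push Not at hlt
  obtain ⟨l, hl⟩ : ∃ l : Fin n, l ≠ k := by
    by_cases h0 : k.val = 0
    · exact ⟨⟨1, by omega⟩, fun h => by rw [← h] at h0; simp at h0⟩
    · exact ⟨⟨0, by omega⟩, fun h => by rw [← h] at h0; simp at h0⟩
  have hkl : k ≠ l := hl.symm
  have h1 := hν.2 k l hkl 1
  have hσ : σ k ≠ σ l := fun h => hkl (σ.injective h)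
  have hc : m k * (m l)⁻¹ * 1 ≠ 0 :=
    mul_ne_zero (mul_ne_zero (hν.1 k) (inv_ne_zero (hν.1 l))) one_ne_zero
  generalize m k * (m l)⁻¹ * 1 = c at h1 hc
  have h2 : π ν * π (X k l 1) = π (X (σ k) (σ l) c) * π ν := by
    rw [← map_mul, ← map_mul, ← h1]; group
  rw [hπ k l hkl, hπ _ _ hσ] at h2
  obtain ⟨M, hM⟩ : ∃ M : Matrix.SpecialLinearGroup (Fin n) K, M = π ν := ⟨_, rfl⟩
  rw [← hM] at h2 hU
  have h3 : (M : Matrix (Fin n) (Fin n) K) * (1 + Matrix.single k l 1) =
      (1 + Matrix.single (σ k) (σ l) c) * (M : Matrix (Fin n) (Fin n) K) := by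
    have := congrArg (fun A : Matrix.SpecialLinearGroup (Fin n) K =>
      (A : Matrix (Fin n) (Fin n) K)) h2
    simpa [Matrix.SpecialLinearGroup.transvection_coe] using this
  have h4 : (M : Matrix (Fin n) (Fin n) K) * Matrix.single k l 1 =
      Matrix.single (σ k) (σ l) c * (M : Matrix (Fin n) (Fin n) K) := by
    rw [mul_add, add_mul, mul_one, one_mul] at h3
    exact add_left_cancel h3
  -- column k of M vanishes outside row σ k
  have h5 : ∀ a : Fin n, a ≠ σ k → (M : Matrix (Fin n) (Fin n) K) a k = 0 := by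
    intro a ha
    have := congrFun (congrFun h4 a) l
    simp only [Matrix.mul_apply, Matrix.single_apply] at this
    simpa [Finset.sum_ite_eq, Ne.symm ha, ha] using this
  -- M (σ k) k = 0 by hU
  have h6 : (M : Matrix (Fin n) (Fin n) K) (σ k) k = 0 := hU _ _ hlt
  have h7 : ∀ a : Fin n, (M : Matrix (Fin n) (Fin n) K) a k = 0 := by
    intro a
    by_cases ha : a = σ k
    · rw [ha]; exact h6
    · exact h5 a ha
  have h8 : (M : Matrix (Fin n) (Fin n) K).det = 0 := Matrix.det_eq_zero_of_column_eq_zero k h7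
  rw [M.det_coe] at h8
  exact one_ne_zero h8
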