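import Mathlib
import Cfsg.Prelude.Def_LocalEven
import Cfsg.Prelude.Def_PLocal
import Cfsg.Prelude.Def_EvenType
import Cfsg.Agent.Lib.Helper54.Qd3
import Cfsg.Agent.Lib.Helper26.FunctorMin
import Cfsg.Agent.Lib.Helper14.PCore
import Cfsg.Agent.Lib.Helper2.JZ

/-!
# `Z(J(S))` does not control strong fusion in `Qd(p)`
-/

set_option autoImplicit false

namespace Cfsg.Agent.Lib.Helper2

open Cfsg Cfsg.Agent.Lib.Helper54 Cfsg.Agent.Lib.Helper26

universe u

theorem centerThompsonAOf_eq_Zc_JJ {G : Type*} [Group G] (P : Subgroup G) :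
    centerThompsonAOf P = Zc (JJ P) := by
  unfold centerThompsonAOf Zc
  rw [thompsonSubgroupAOf_eq_JJ]

theorem centerThompsonAOf_map_equiv {X Y : Type*} [Group X] [Group Y] (e : X ≃* Y)
    (P : Subgroup X) :
    (centerThompsonAOf P).map e.toMonoidHom = centerThompsonAOf (P.map e.toMonoidHom) := by
  rw [centerThompsonAOf_eq_Zc_JJ, centerThompsonAOf_eq_Zc_JJ,
    Zc_map e.toMonoidHom (fun x _ hx => e.injective (by rw [map_one]; exact hx)),
    JJ_map e.toMonoidHom (fun x _ hx => e.injective (by rw [map_one]; exact hx))]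

/-- Control of strong fusion is transported by isomorphisms. -/
theorem controlsStrongFusion_map_equiv {X Y : Type*} [Group X] [Group Y] [Finite X]
    {p : ℕ} [Fact p.Prime] (e : X ≃* Y) (U : Subgroup X) (h : ControlsStrongFusion p U) :
    ControlsStrongFusion p (U.map e.toMonoidHom) := by
  obtain ⟨T, hUT, hctl⟩ := h
  have hsurj : Function.Surjective e.toMonoidHom := e.surjective
  refine ⟨T.mapSurjective hsurj, ?_, ?_⟩
  · rw [Sylow.coe_mapSurjective]
    exact Subgroup.map_mono hUT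
  · intro A' hA'
    rw [Sylow.coe_mapSurjective] at hA' ⊢
    have hmem : ∀ x : X, e x ∈ (T : Subgroup X).map e.toMonoidHom → x ∈ (T : Subgroup X) := by
      rintro x ⟨t, ht, hte⟩
      have : t = x := e.injective hte
      rw [← this]; exact ht
    have hA : e.symm '' A' ⊆ ((T : Subgroup X) : Set X) := by
      rintro _ ⟨a', ha', rfl⟩
      apply hmem
      rw [e.apply_symm_apply]
      exact hA' ha'
    obtain ⟨-, hc⟩ := hctl _ hA
    refine ⟨hA', ?_⟩
    intro g' hg'
    have hg : (fun a => e.symm g' * a * (e.symm g')⁻¹) '' (e.symm '' A') ⊆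
        ((T : Subgroup X) : Set X) := by
      rintro _ ⟨_, ⟨a', ha', rfl⟩, rfl⟩
      apply hmem
      rw [map_mul, map_mul, map_inv, e.apply_symm_apply, e.apply_symm_apply]
      exact hg' ⟨a', ha', rfl⟩
    obtain ⟨x, hx, hxa⟩ := hc _ hg
    refine ⟨e x, ?_, ?_⟩
    · have := Subgroup.le_normalizer_map e.toMonoidHom (Subgroup.mem_map_of_mem e.toMonoidHom hx)
      exact this
    · intro a' ha'
      have h1 := hxa (e.symm a') ⟨a', ha', rfl⟩
      have h2 := congrArg e h1
      rw [map_mul, map_mul, map_inv, e.apply_symm_apply, e.apply_symm_apply, map_mul, map_mul,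
        map_inv, e.apply_symm_apply] at h2
      exact h2

section aff

variable {p : ℕ} [Fact p.Prime]

/-- In `Qd(p)` (as the affine group), `Z(J(S))` does not control strong fusion. -/
theorem not_controls_affSub (S : Sylow p ↥(affSub (ZMod p))) :
    ¬ ControlsStrongFusion p (centerThompsonAOf (S : Subgroup ↥(affSub (ZMod p)))) := by
  have hcast : ∀ x : ZMod p, ∃ n : ℕ, (n : ZMod p) = x := fun x => ⟨x.val, ZMod.natCast_zmod_val x⟩
  have hVS : ∀ S' : Sylow p ↥(affSub (ZMod p)), transSub (ZMod p) ≤ (S' : Subgroup _) := by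
    intro S'
    rw [← pCore_affSub (p := p) (F := ZMod p)]
    exact Cfsg.Agent.Lib.Helper14.pCore_le_sylow S'
  have hSnt : Nontrivial ↥(S : Subgroup ↥(affSub (ZMod p))) := by
    refine ⟨⟨⟨tv 1 0, hVS S (tv_mem 1 0)⟩, 1, ?_⟩⟩
    intro h
    have h1 : tv (1 : ZMod p) 0 = 1 := congrArg Subtype.val h
    rw [← tv_zero] at h1
    exact one_ne_zero (tv_injective h1).1
  have hne : zjA ↥(S : Subgroup ↥(affSub (ZMod p))) ≠ ⊥ :=
    (zjA_char p).1 _ S.isPGroup' hSnt
  have hchar : (zjA ↥(S : Subgroup ↥(affSub (ZMod p)))).Characteristic := by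
    rw [Subgroup.characteristic_iff_map_eq]
    intro φ
    exact (zjA_char p).2 _ _ S.isPGroup' φ
  obtain ⟨hN, hNtop⟩ := sylow_char hcast S _ hne hchar
  have hind := ind_zjA (S : Subgroup ↥(affSub (ZMod p)))
  unfold inducedFunctor at hind
  rw [hind] at hN
  rintro ⟨T', hUT', hctl⟩
  apply hNtop
  rw [eq_top_iff]
  intro g _
  have hV : ((transSub (ZMod p) : Subgroup ↥(affSub (ZMod p))) : Set ↥(affSub (ZMod p))) ⊆
      ((T' : Subgroup ↥(affSub (ZMod p))) : Set ↥(affSub (ZMod p))) := hVS T'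
  obtain ⟨-, hc⟩ := hctl _ hV
  have hg : (fun a => g * a * g⁻¹) '' ((transSub (ZMod p) : Subgroup ↥(affSub (ZMod p))) :
      Set ↥(affSub (ZMod p))) ⊆ ((T' : Subgroup ↥(affSub (ZMod p))) : Set ↥(affSub (ZMod p))) := by
    rintro _ ⟨a, ha, rfl⟩
    exact hVS T' (transSub_normal.conj_mem a ha g)
  obtain ⟨x, hx, hxa⟩ := hc g hg
  rw [hN] at hx
  have hcen : x⁻¹ * g ∈ Subgroup.centralizer
      ((transSub (ZMod p) : Subgroup ↥(affSub (ZMod p))) : Set ↥(affSub (ZMod p))) := by
    rw [Subgroup.mem_centralizer_iff]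
    intro a ha
    have h1 := hxa a ha
    have h2 : x⁻¹ * g * a * (x⁻¹ * g)⁻¹ = a := by
      have : x⁻¹ * g * a * (x⁻¹ * g)⁻¹ = x⁻¹ * (g * a * g⁻¹) * x := by group
      rw [this, h1]; group
    calc a * (x⁻¹ * g) = (x⁻¹ * g * a * (x⁻¹ * g)⁻¹) * (x⁻¹ * g) := by rw [h2]
      _ = x⁻¹ * g * a := by group
  have h3 : x⁻¹ * g ∈ Subgroup.normalizer ((S : Subgroup ↥(affSub (ZMod p))) : Set _) :=
    Subgroup.le_normalizer (hVS S (centralizer_transSub_le hcen))
  have h4 := Subgroup.mul_mem _ hx h3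
  rwa [mul_inv_cancel_left] at h4

theorem not_controls_of_eq (Q : Subgroup (Matrix.SpecialLinearGroup (Fin 3) (ZMod p)))
    (hQ : Q = affSub (ZMod p)) (S : Sylow p ↥Q) :
    ¬ ControlsStrongFusion p (centerThompsonAOf (S : Subgroup ↥Q)) := by
  subst hQ
  exact not_controls_affSub S

/-- In any group isomorphic to `Qd(p)`, `Z(J(T))` does not control strong fusion. -/
theorem not_controls_of_equiv_qd {X : Type*} [Group X] [Finite X] (e : X ≃* ↥(qd p))
    (T : Sylow p X) : ¬ ControlsStrongFusion p (centerThompsonAOf (T : Subgroup X)) := by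
  intro h
  have h1 := controlsStrongFusion_map_equiv e _ h
  rw [centerThompsonAOf_map_equiv] at h1
  have hsurj : Function.Surjective e.toMonoidHom := e.surjective
  have h2 := not_controls_of_eq (qd p) (qd_eq p) (T.mapSurjective hsurj)
  rw [Sylow.coe_mapSurjective] at h2
  exact h2 h1

end aff

end Cfsg.Agent.Lib.Helper2
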