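import Cfsg.Agent.Lib.Helper27.ChevDyn
import Cfsg.Agent.Lib.Helper24.Grade
import Cfsg.Agent.Lib.Helper25.ChevCharDiag

/-! # Conjugation by the diagonal matrix of a root character is an automorphism of the
Chevalley group (piece PK2 of the Chevalley automorphism project of helper27) -/

set_option autoImplicit false

namespace Cfsg.Agent.Lib.Helper2.ChevDynP

open Cfsg.Lie Matrix Cfsg.Agent.Lib.Helper27.ChevDyn Cfsg.Agent.Lib.Helper24
  Cfsg.Agent.Lib.Helper25

variable {F : Type*} [Field F] (D : ChevalleyDatum)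

/-- the matrix of the root element `xg D r a` -/
theorem k2_xg_val (hD : D ∈ lst) (r : ℕ) (a : F) :
    ((xg D r a : GL D.Idx F) : Matrix D.Idx D.Idx F) = D.x F r a := by
  have hD' : D ∈ chevList := hD
  have h : ∃ g : ↥(D.group F), ((g : GL D.Idx F) : Matrix D.Idx D.Idx F) = D.x F r a :=
    ⟨⟨xGL D hD' r a, xGL_mem_group D hD' r a⟩, rfl⟩
  unfold xg
  rw [dif_pos h]
  exact h.choose_spec

/-- PK2: conjugation by `charDiag χ` is an automorphism of the group -/
theorem pieceK2 (hD : D ∈ lst) (χ : ℕ → Fˣ) (hχ : D.IsRootCharacter χ) :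
    ∃ φ : ↥(D.group F) ≃* ↥(D.group F),
      (∀ g : ↥(D.group F), ((φ g : GL D.Idx F) : Matrix D.Idx D.Idx F) =
        D.charDiag F χ * ((g : GL D.Idx F) : Matrix D.Idx D.Idx F) *
          D.charDiag F (fun r => (χ r)⁻¹)) ∧
      (∀ (r : ℕ), r < D.nroots → ∀ a : F, φ (xg D r a) = xg D r ((χ r : F) * a)) := by
  classical
  have hD' : D ∈ chevList := hD
  have hχi : D.IsRootCharacter (fun r => (χ r)⁻¹) := by
    refine ⟨fun r hr => ?_, fun r s k hr hs hk => ?_⟩
    · show (χ (D.neg r))⁻¹ = ((χ r)⁻¹)⁻¹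
      rw [hχ.1 r hr]
    · show (χ k)⁻¹ = (χ r)⁻¹ * (χ s)⁻¹
      rw [hχ.2 r s k hr hs hk, mul_inv]
  have hd := mulGraded_of_rootCharacter D hD χ hχ
  have hdi := mulGraded_of_rootCharacter D hD _ hχi
  have h1 : D.charDiag F χ * D.charDiag F (fun r => (χ r)⁻¹) = 1 := by
    rw [charDiag_eq_torus, charDiag_eq_torus, torus_mul_torus, ← torus_one (F := F) D]
    congr 1
    funext s
    rw [← Units.val_mul, mul_inv_cancel, Units.val_one]
  have h2 : D.charDiag F (fun r => (χ r)⁻¹) * D.charDiag F χ = 1 := by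
    rw [charDiag_eq_torus, charDiag_eq_torus, torus_mul_torus, ← torus_one (F := F) D]
    congr 1
    funext s
    rw [← Units.val_mul, inv_mul_cancel, Units.val_one]
  obtain ⟨d, hdv, hdiv⟩ : ∃ d : GL D.Idx F, (d : Matrix D.Idx D.Idx F) = D.charDiag F χ ∧
      ((d⁻¹ : GL D.Idx F) : Matrix D.Idx D.Idx F) = D.charDiag F (fun r => (χ r)⁻¹) :=
    ⟨⟨D.charDiag F χ, D.charDiag F (fun r => (χ r)⁻¹), h1, h2⟩, rfl, rfl⟩
  have hconj : ∀ (r : ℕ) (_ : r < D.nroots) (t : F),
      D.charDiag F χ * D.x F r t * D.charDiag F (fun r => (χ r)⁻¹) =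
        D.x F r ((χ r : F) * t) := by
    intro r hr t
    have e := torus_mul_x D _ hd r hr t
    rw [← charDiag_eq_torus] at e
    rw [e, mul_assoc, h1, mul_one]
  have hconj' : ∀ (r : ℕ) (_ : r < D.nroots) (t : F),
      D.charDiag F (fun r => (χ r)⁻¹) * D.x F r t * D.charDiag F χ =
        D.x F r ((((χ r)⁻¹ : Fˣ) : F) * t) := by
    intro r hr t
    have e := torus_mul_x D _ hdi r hr t
    rw [← charDiag_eq_torus] at e
    rw [e, mul_assoc, h2, mul_one]
  have hmem : ∀ g ∈ D.group F, d * g * d⁻¹ ∈ D.group F := by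
    intro g hg
    refine conj_mem_closure _ d ?_ g hg
    rintro g ⟨r, t, hgr⟩
    apply mem_group_of_val_x D hD' _ r.val ((χ r.val : F) * t)
    rw [Units.val_mul, Units.val_mul, hgr, ← x_eq_xMat D r.val r.2 t, hdv, hdiv]
    exact hconj r.val r.2 t
  have hmem' : ∀ g ∈ D.group F, d⁻¹ * g * d ∈ D.group F := by
    intro g hg
    have key := conj_mem_closure {g : GL D.Idx F | ∃ (r : Fin D.nroots) (t : F),
      (g : Matrix D.Idx D.Idx F) = D.xMat F r t} d⁻¹ ?_ g hg
    · rwa [inv_inv] at key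
    · rintro g ⟨r, t, hgr⟩
      rw [inv_inv]
      apply mem_group_of_val_x D hD' _ r.val ((((χ r.val)⁻¹ : Fˣ) : F) * t)
      rw [Units.val_mul, Units.val_mul, hgr, ← x_eq_xMat D r.val r.2 t, hdv, hdiv]
      exact hconj' r.val r.2 t
  refine ⟨{ toFun := fun g => ⟨d * g * d⁻¹, hmem g g.2⟩
            invFun := fun g => ⟨d⁻¹ * g * d, hmem' g g.2⟩
            left_inv := fun g => Subtype.ext (by
              show d⁻¹ * (d * (g : GL D.Idx F) * d⁻¹) * d = g
              group)
            right_inv := fun g => Subtype.ext (by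
              show d * (d⁻¹ * (g : GL D.Idx F) * d) * d⁻¹ = g
              group)
            map_mul' := fun g h => Subtype.ext (by
              show d * ((g : GL D.Idx F) * (h : GL D.Idx F)) * d⁻¹ =
                (d * (g : GL D.Idx F) * d⁻¹) * (d * (h : GL D.Idx F) * d⁻¹)
              group) }, ?_, ?_⟩
  · intro g
    show ((d * (g : GL D.Idx F) * d⁻¹ : GL D.Idx F) : Matrix D.Idx D.Idx F) = _
    rw [Units.val_mul, Units.val_mul, hdv, hdiv]
  · intro r hr a
    apply Subtype.ext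
    apply Units.ext
    show ((d * (xg D r a : GL D.Idx F) * d⁻¹ : GL D.Idx F) : Matrix D.Idx D.Idx F) = _
    rw [Units.val_mul, Units.val_mul, hdv, hdiv, k2_xg_val D hD, k2_xg_val D hD]
    exact hconj r hr a

end Cfsg.Agent.Lib.Helper2.ChevDynP
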