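import Mathlib
import Cfsg.Agent.Lib.Helper48.DCA
import Cfsg.Agent.Lib.Helper25.ChevUpAll
import Cfsg.Agent.Lib.Helper24.ChevBorel
import Cfsg.Agent.Lib.Helper25.ChevNWord
import Cfsg.Agent.Lib.Helper24.ChevGL

/-!
# S2318 (project DC of helper48), piece QNORM: the minimal parabolic `P_i` normalizes `Q_i`.
-/

set_option autoImplicit false

namespace Cfsg.Agent.Lib.Helper48.DC

open Cfsg Cfsg.Lie

variable {F : Type*} [Field F] [Fintype F]

omit [Fintype F] in
theorem qnorm_aux (D : ChevalleyDatum)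
    (hD : D ∈ [chevG2, chevB2, chevD4, chevF4, chevE6, chevE7, chevE8]) (i : ℕ) (hi : i < D.rank) :
    D.parabolicSubgroup F ((({i} : Finset ℕ)) : Set ℕ) ≤
      Subgroup.normalizer ((Ql F D i : Subgroup (GL D.Idx F)) : Set (GL D.Idx F)) := by
  have hD' : D ∈ Cfsg.Agent.Lib.Helper24.chevList := hD
  obtain ⟨hN, hU⟩ := Cfsg.Agent.Lib.Helper25.up_normalized (F := F) D hD i hi
  have hUle : D.posUnipotent F ≤
      Subgroup.normalizer ((Ql F D i : Subgroup (GL D.Idx F)) : Set (GL D.Idx F)) := by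
    rw [← hU]
    exact sup_le Subgroup.le_normalizer (le_sup_left.trans hN)
  have hHle : D.diagonalSubgroup F ≤
      Subgroup.normalizer ((Ql F D i : Subgroup (GL D.Idx F)) : Set (GL D.Idx F)) := by
    have h := Cfsg.Agent.Lib.Helper24.diagonal_le_normalizer_rootGen (F := F) D hD'
      (fun r => D.IsPosRoot r ∧ r ≠ D.simple i) (fun r hr => hr.1.1)
    have e : Cfsg.Agent.Lib.Helper24.rootGen F D (fun r => D.IsPosRoot r ∧ r ≠ D.simple i) =
        Ql F D i := by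
      unfold Cfsg.Agent.Lib.Helper24.rootGen
      congr 1
      ext g
      constructor
      · rintro ⟨r, t, ⟨h1, h2⟩, h3⟩; exact ⟨r, t, h1, h2, h3⟩
      · rintro ⟨r, t, h1, h2, h3⟩; exact ⟨r, t, ⟨h1, h2⟩, h3⟩
    rw [e] at h
    exact h
  have hnle : Subgroup.closure {g : GL D.Idx F | ∃ j ∈ ((({i} : Finset ℕ)) : Set ℕ),
      j < D.rank ∧ (g : Matrix D.Idx D.Idx F) = D.nMat F (D.simple j) 1} ≤
      Subgroup.normalizer ((Ql F D i : Subgroup (GL D.Idx F)) : Set (GL D.Idx F)) := by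
    rw [Subgroup.closure_le]
    rintro g ⟨j, hj, -, hg⟩
    have hji : j = i := by simpa using hj
    subst hji
    apply hN
    have hg' : g = Cfsg.Agent.Lib.Helper24.xGL D hD' (D.simple j) 1 *
        (Cfsg.Agent.Lib.Helper24.xGL D hD' (D.neg (D.simple j)) (-(1 : F)⁻¹) *
          Cfsg.Agent.Lib.Helper24.xGL D hD' (D.simple j) 1) := by
      apply Units.ext
      rw [hg, Cfsg.Agent.Lib.Helper25.nMat_eq_x]
      rfl
    rw [hg']
    have h1 : Cfsg.Agent.Lib.Helper24.xGL D hD' (D.simple j) (1 : F) ∈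
        D.rootSubgroup F (D.simple j) := Subgroup.subset_closure ⟨1, rfl⟩
    have h2 : Cfsg.Agent.Lib.Helper24.xGL D hD' (D.neg (D.simple j)) (-(1 : F)⁻¹) ∈
        D.rootSubgroup F (D.neg (D.simple j)) := Subgroup.subset_closure ⟨_, rfl⟩
    exact Subgroup.mul_mem _ (Subgroup.mem_sup_left h1)
      (Subgroup.mul_mem _ (Subgroup.mem_sup_right h2) (Subgroup.mem_sup_left h1))
  unfold ChevalleyDatum.parabolicSubgroup ChevalleyDatum.borelSubgroup
  exact sup_le (sup_le hUle hHle) hnle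

/-- QNORM -/
theorem Qg_normal (D : ChevalleyDatum)
    (hD : D ∈ [chevG2, chevB2, chevD4, chevF4, chevE6, chevE7, chevE8]) (i : ℕ) (hi : i < D.rank) :
    ∀ x ∈ Pg F D i, ∀ v ∈ Qg F D i, x * v * x⁻¹ ∈ Qg F D i := by
  intro x hx v hv
  have hx' : (x : GL D.Idx F) ∈ D.parabolicSubgroup F ((({i} : Finset ℕ)) : Set ℕ) :=
    Subgroup.mem_subgroupOf.mp hx
  have hv' : (v : GL D.Idx F) ∈ Ql F D i := Subgroup.mem_subgroupOf.mp hv
  have hn := qnorm_aux D hD i hi hx'
  have h1 : (x : GL D.Idx F) * (v : GL D.Idx F) * (x : GL D.Idx F)⁻¹ ∈ Ql F D i :=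
    (Subgroup.mem_normalizer_iff.mp hn _).mp hv'
  exact Subgroup.mem_subgroupOf.mpr h1

end Cfsg.Agent.Lib.Helper48.DC
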