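import Mathlib
import Cfsg.Agent.Lib.Helper97.FCDefs
import Cfsg.Agent.Lib.Helper88.GrpSyl

/-!
# S5115, piece FC-EXTH

A subgroup `U ≤ S ∩ H` that is "normal in `F_S(G)`" is "normal in `F_{S ∩ H}(H)`" for `H ⊴ G`.
-/

set_option autoImplicit false

namespace Cfsg.Agent.Lib.Helper2.FC

open Cfsg.Agent.Lib.Helper97.FC Cfsg.Agent.Lib.Helper88

universe u

section

variable {G : Type u} [Group G]

/-- The conjugate `a P a⁻¹`. -/
def cj (a : G) (P : Subgroup G) : Subgroup G := P.map (MulAut.conj a).toMonoidHom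

theorem mem_cj {a y : G} {P : Subgroup G} : y ∈ cj a P ↔ a⁻¹ * y * a ∈ P := by
  constructor
  · rintro ⟨x, hx, rfl⟩
    have e : a⁻¹ * (a * x * a⁻¹) * a = x := by group
    change a⁻¹ * (a * x * a⁻¹) * a ∈ P
    rw [e]; exact hx
  · intro h
    refine ⟨a⁻¹ * y * a, h, ?_⟩
    change a * (a⁻¹ * y * a) * a⁻¹ = y
    group

theorem cj_mem {a x : G} {P : Subgroup G} (hx : x ∈ P) : a * x * a⁻¹ ∈ cj a P := ⟨x, hx, rfl⟩

theorem isPGroup_cj {p : ℕ} {a : G} {P : Subgroup G} (hP : IsPGroup p P) : IsPGroup p (cj a P) :=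
  hP.map _

theorem card_cj (a : G) (P : Subgroup G) : Nat.card (cj a P) = Nat.card P :=
  Subgroup.card_map_of_injective (f := (MulAut.conj a).toMonoidHom) (MulAut.conj a).injective

/-- `A` is a Sylow `p`-subgroup of `N` (conjugacy form). -/
def SylIn (p : ℕ) (A N : Subgroup G) : Prop :=
  A ≤ N ∧ IsPGroup p A ∧
    ∀ D : Subgroup G, D ≤ N → IsPGroup p D → ∃ x ∈ N, ∀ d ∈ D, x * d * x⁻¹ ∈ A

variable [Finite G] {p : ℕ} [Fact p.Prime]

theorem exists_sylIn (N D : Subgroup G) (hDN : D ≤ N) (hD : IsPGroup p D) :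
    ∃ A : Subgroup G, D ≤ A ∧ SylIn p A N := by
  obtain ⟨Q, hQ⟩ := (hD.comap_subtype (K := N)).exists_le_sylow
  refine ⟨(Q : Subgroup ↥N).map N.subtype, ?_, ?_, ?_, ?_⟩
  · intro d hd
    exact ⟨⟨d, hDN hd⟩, hQ (Subgroup.mem_comap.mpr hd), rfl⟩
  · exact Subgroup.map_subtype_le _
  · exact Q.isPGroup'.map _
  · intro D' hD'N hD'
    obtain ⟨x, hx⟩ := exists_conj_le_sylow Q (D'.comap N.subtype) hD'.comap_subtype
    refine ⟨x, x.2, fun d hd => ?_⟩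
    exact ⟨x * ⟨d, hD'N hd⟩ * x⁻¹, hx _ (Subgroup.mem_comap.mpr hd), rfl⟩

theorem SylIn.eq_of_le {A N D : Subgroup G} (h : SylIn p A N) (hDN : D ≤ N) (hD : IsPGroup p D)
    (hAD : A ≤ D) : D = A := by
  obtain ⟨x, -, hx⟩ := h.2.2 D hDN hD
  have h1 : cj x D ≤ A := by
    intro y hy
    rw [mem_cj] at hy
    have := hx _ hy
    have e : x * (x⁻¹ * y * x) * x⁻¹ = y := by group
    rwa [e] at this
  have h2 : Nat.card D ≤ Nat.card A := by
    rw [← card_cj x D]; exact Subgroup.card_le_of_le h1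
  exact (Subgroup.eq_of_le_of_card_ge hAD h2).symm

theorem sylIn_of_max {A N : Subgroup G} (hAN : A ≤ N) (hA : IsPGroup p A)
    (hmax : ∀ D : Subgroup G, D ≤ N → IsPGroup p D → A ≤ D → D = A) : SylIn p A N := by
  obtain ⟨A', hAA', hA'⟩ := exists_sylIn N A hAN hA
  have := hmax A' hA'.1 hA'.2.1 hAA'
  rw [this] at hA'; exact hA'

theorem SylIn.mono {A N M : Subgroup G} (h : SylIn p A N) (hAM : A ≤ M) (hMN : M ≤ N) :
    SylIn p A M :=
  sylIn_of_max hAM h.2.1 (fun D hDM hD hAD => h.eq_of_le (hDM.trans hMN) hD hAD)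

theorem sylIn_inf_normal {S H : Subgroup G} (hS : IsSyl p S) (hH : H.Normal) :
    SylIn p (S ⊓ H) H := by
  obtain ⟨R, rfl⟩ := hS
  have hT : IsPGroup p ((R : Subgroup G) ⊓ H : Subgroup G) := R.isPGroup'.to_le inf_le_left
  refine sylIn_of_max inf_le_right hT (fun D hDH hD hTD => ?_)
  obtain ⟨g, hg⟩ := exists_conj_le_sylow R D hD
  have h1 : cj g D ≤ (R : Subgroup G) ⊓ H := by
    intro y hy
    rw [mem_cj] at hy
    have h2 := hg _ hy
    have e : g * (g⁻¹ * y * g) * g⁻¹ = y := by group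
    rw [e] at h2
    refine Subgroup.mem_inf.mpr ⟨h2, ?_⟩
    have h3 := hH.conj_mem _ (hDH hy) g
    rwa [e] at h3
  have h2 : Nat.card D ≤ Nat.card ((R : Subgroup G) ⊓ H : Subgroup G) := by
    rw [← card_cj g D]; exact Subgroup.card_le_of_le h1
  exact (Subgroup.eq_of_le_of_card_ge hTD h2).symm

theorem SylIn.conj_by_normal {A N K D : Subgroup G} (h : SylIn p A N) (hKN : K ≤ N)
    (hK : ∀ x ∈ N, ∀ k ∈ K, x * k * x⁻¹ ∈ K) (hD : IsPGroup p D)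
    (hDAK : ∀ d ∈ D, ∃ a ∈ A, ∃ k ∈ K, d = a * k) :
    ∃ k ∈ K, ∀ d ∈ D, k * d * k⁻¹ ∈ A := by
  obtain ⟨M, hM⟩ : ∃ M : Subgroup G, ∀ m, m ∈ M ↔ ∃ a ∈ A, ∃ k ∈ K, m = a * k :=
    ⟨{ carrier := {m | ∃ a ∈ A, ∃ k ∈ K, m = a * k}
       one_mem' := ⟨1, A.one_mem, 1, K.one_mem, by simp⟩
       mul_mem' := by
        rintro _ _ ⟨a, ha, k, hk, rfl⟩ ⟨a', ha', k', hk', rfl⟩
        refine ⟨a * a', A.mul_mem ha ha', a'⁻¹ * k * a'⁻¹⁻¹ * k', K.mul_mem ?_ hk', by group⟩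
        exact hK _ (h.1 (A.inv_mem ha')) k hk
       inv_mem' := by
        rintro _ ⟨a, ha, k, hk, rfl⟩
        exact ⟨a⁻¹, A.inv_mem ha, a * k⁻¹ * a⁻¹, hK a (h.1 ha) k⁻¹ (K.inv_mem hk), by group⟩ },
      fun m => Iff.rfl⟩
  have hAM : A ≤ M := fun a ha => (hM a).mpr ⟨a, ha, 1, K.one_mem, by simp⟩
  have hMN : M ≤ N := by
    intro m hm
    obtain ⟨a, ha, k, hk, rfl⟩ := (hM m).mp hm
    exact N.mul_mem (h.1 ha) (hKN hk)
  have hDM : D ≤ M := fun d hd => (hM d).mpr (hDAK d hd)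
  obtain ⟨m, hmM, hm⟩ := (h.mono hAM hMN).2.2 D hDM hD
  obtain ⟨a, ha, k, hk, rfl⟩ := (hM m).mp hmM
  refine ⟨k, hk, fun d hd => ?_⟩
  have h1 := hm d hd
  have e : k * d * k⁻¹ = a⁻¹ * (a * k * d * (a * k)⁻¹) * a := by group
  rw [e]
  exact A.mul_mem (A.mul_mem (A.inv_mem ha) h1) ha

theorem nz_grow {P D : Subgroup G} (hP : IsPGroup p P) (hDP : D ≤ P) (hne : D ≠ P) :
    ∃ x ∈ P, x ∉ D ∧ x ∈ Subgroup.normalizer (D : Set G) := by
  have hnil : Group.IsNilpotent P := hP.isNilpotent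
  have hlt : D.subgroupOf P < ⊤ := by
    rw [lt_top_iff_ne_top, Ne, Subgroup.subgroupOf_eq_top]
    exact fun h => hne (le_antisymm hDP h)
  have hnc := Group.normalizerCondition_of_isNilpotent (G := P) _ hlt
  obtain ⟨x, hxN, hxD⟩ := SetLike.exists_of_lt hnc
  refine ⟨x.1, x.2, fun h => hxD (Subgroup.mem_subgroupOf.mpr h), ?_⟩
  rw [← Subgroup.subgroupOf_normalizer_eq hDP] at hxN
  exact Subgroup.mem_subgroupOf.mp hxN

theorem conj_mem_normalizer_cj {a y : G} {P : Subgroup G}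
    (hy : y ∈ Subgroup.normalizer (P : Set G)) :
    a * y * a⁻¹ ∈ Subgroup.normalizer ((cj a P : Subgroup G) : Set G) := by
  apply mem_normalizer_of_conj_le
  intro q hq
  rw [mem_cj] at hq ⊢
  have h1 := conj_mem_of_mem_normalizer' hy hq
  have e : a⁻¹ * (a * y * a⁻¹ * q * (a * y * a⁻¹)⁻¹) * a = y * (a⁻¹ * q * a) * y⁻¹ := by group
  rw [e]; exact h1

theorem inv_conj_mem_normalizer_of_cj {a d : G} {P : Subgroup G}
    (hd : d ∈ Subgroup.normalizer ((cj a P : Subgroup G) : Set G)) :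
    a⁻¹ * d * a ∈ Subgroup.normalizer (P : Set G) := by
  apply mem_normalizer_of_conj_le
  intro x hx
  have h1 := conj_mem_of_mem_normalizer' hd (cj_mem (a := a) hx)
  rw [mem_cj] at h1
  have e : a⁻¹ * (d * (a * x * a⁻¹) * d⁻¹) * a = a⁻¹ * d * a * x * (a⁻¹ * d * a)⁻¹ := by group
  rw [e] at h1; exact h1

theorem exists_fully_normalized {T H : Subgroup G} (hT : SylIn p T H) (P : Subgroup G)
    (hPT : P ≤ T) :
    ∃ a ∈ H, (∀ x ∈ P, a * x * a⁻¹ ∈ T) ∧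
      SylIn p (T ⊓ Subgroup.normalizer ((cj a P : Subgroup G) : Set G))
        (H ⊓ Subgroup.normalizer ((cj a P : Subgroup G) : Set G)) := by
  have hPN : P ≤ H ⊓ Subgroup.normalizer (P : Set G) :=
    le_inf (hPT.trans hT.1) Subgroup.le_normalizer
  obtain ⟨Q, hPQ, hQ⟩ := exists_sylIn (p := p) (H ⊓ Subgroup.normalizer (P : Set G)) P hPN
    (hT.2.1.to_le hPT)
  obtain ⟨a, ha, haQ⟩ := hT.2.2 Q (hQ.1.trans inf_le_left) hQ.2.1
  refine ⟨a, ha, fun x hx => haQ x (hPQ hx), inf_le_inf_right _ hT.1, hT.2.1.to_le inf_le_left, ?_⟩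
  intro D hD hDp
  have hD' : cj a⁻¹ D ≤ H ⊓ Subgroup.normalizer (P : Set G) := by
    intro y hy
    rw [mem_cj, inv_inv] at hy
    have hy' := hD hy
    rw [Subgroup.mem_inf] at hy' ⊢
    have e : a⁻¹ * (a * y * a⁻¹) * a = y := by group
    constructor
    · have := H.mul_mem (H.mul_mem (H.inv_mem ha) hy'.1) ha
      rwa [e] at this
    · have := inv_conj_mem_normalizer_of_cj hy'.2
      rwa [e] at this
  obtain ⟨x, hx, hxD⟩ := hQ.2.2 (cj a⁻¹ D) hD' (isPGroup_cj hDp)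
  rw [Subgroup.mem_inf] at hx
  refine ⟨a * x * a⁻¹, Subgroup.mem_inf.mpr ⟨H.mul_mem (H.mul_mem ha hx.1) (H.inv_mem ha),
    conj_mem_normalizer_cj hx.2⟩, fun d hd => ?_⟩
  have h1 := hxD (a⁻¹ * d * a⁻¹⁻¹) (cj_mem hd)
  have e : a * x * a⁻¹ * d * (a * x * a⁻¹)⁻¹ = a * (x * (a⁻¹ * d * a⁻¹⁻¹) * x⁻¹) * a⁻¹ := by
    group
  rw [e]
  refine Subgroup.mem_inf.mpr ⟨haQ _ h1, conj_mem_normalizer_cj ?_⟩
  exact (Subgroup.mem_inf.mp (hQ.1 h1)).2

theorem step1 {S H U : Subgroup G} (hSp : IsPGroup p S) (hH : H.Normal) (hUT : U ≤ S ⊓ H)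
    (hExt : Ext S U)
    (P : Subgroup G) (hPT : P ≤ S ⊓ H) (h : G) (hh : h ∈ H)
    (hPh : ∀ x ∈ P, h * x * h⁻¹ ∈ S ⊓ H)
    (hfn : SylIn p ((S ⊓ H) ⊓ Subgroup.normalizer ((cj h P : Subgroup G) : Set G))
        (H ⊓ Subgroup.normalizer ((cj h P : Subgroup G) : Set G)))
    (IH : ∀ P₁ : Subgroup G, P₁ ≤ S ⊓ H → Nat.card P < Nat.card P₁ → ∀ h₁ ∈ H,
        (∀ x ∈ P₁, h₁ * x * h₁⁻¹ ∈ S ⊓ H) →
        ∃ h' ∈ H, h' ∈ Subgroup.normalizer (U : Set G) ∧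
          ∀ x ∈ P₁, h' * x * h'⁻¹ = h₁ * x * h₁⁻¹) :
    ∃ h' ∈ H, h' ∈ Subgroup.normalizer (U : Set G) ∧ ∀ x ∈ P, h' * x * h'⁻¹ = h * x * h⁻¹ := by
  obtain ⟨n, hn, hnP⟩ := hExt P (hPT.trans inf_le_left) h
    (fun x hx => (Subgroup.mem_inf.mp (hPh x hx)).1)
  by_cases hUP : U ≤ P
  · refine ⟨h, hh, ?_, fun x _ => rfl⟩
    apply mem_normalizer_of_conj_le
    intro u hu
    rw [← hnP u (hUP hu)]
    exact conj_mem_of_mem_normalizer' hn hu
  · have hTp : IsPGroup p (S ⊓ H : Subgroup G) := hSp.to_le inf_le_left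
    have hPUT : P ⊔ U ≤ S ⊓ H := sup_le hPT hUT
    have hne : P ≠ P ⊔ U := by
      intro he
      apply hUP
      have h0 : U ≤ P ⊔ U := le_sup_right
      rwa [← he] at h0
    obtain ⟨y₀, hy₀PU, hy₀P, hy₀N⟩ := nz_grow (hTp.to_le hPUT) le_sup_left hne
    obtain ⟨P₁, hP₁⟩ : ∃ P₁ : Subgroup G, P₁ = (P ⊔ U) ⊓ Subgroup.normalizer (P : Set G) :=
      ⟨_, rfl⟩
    have hPP₁ : P ≤ P₁ := by rw [hP₁]; exact le_inf le_sup_left Subgroup.le_normalizer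
    have hP₁T : P₁ ≤ S ⊓ H := by rw [hP₁]; exact inf_le_left.trans hPUT
    have hlt : Nat.card P < Nat.card P₁ := by
      by_contra hge
      push Not at hge
      have h0 := Subgroup.eq_of_le_of_card_ge hPP₁ hge
      apply hy₀P
      rw [h0, hP₁]
      exact Subgroup.mem_inf.mpr ⟨hy₀PU, hy₀N⟩
    have hnPU : ∀ y ∈ P ⊔ U, n * y * n⁻¹ ∈ S ⊓ H := by
      have h0 : P ⊔ U ≤ (S ⊓ H).comap (MulAut.conj n).toMonoidHom := by
        apply sup_le
        · intro x hx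
          rw [Subgroup.mem_comap]
          change n * x * n⁻¹ ∈ S ⊓ H
          rw [hnP x hx]; exact hPh x hx
        · intro u hu
          rw [Subgroup.mem_comap]
          change n * u * n⁻¹ ∈ S ⊓ H
          exact hUT (conj_mem_of_mem_normalizer' hn hu)
      intro y hy
      exact h0 hy
    have hkey : ∀ y ∈ P₁,
        ∃ w ∈ (S ⊓ H) ⊓ Subgroup.normalizer ((cj h P : Subgroup G) : Set G),
        ∃ v ∈ H ⊓ Subgroup.centralizer ((cj h P : Subgroup G) : Set G),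
          h * y * h⁻¹ = w * v := by
      intro y hy
      rw [hP₁, Subgroup.mem_inf] at hy
      obtain ⟨hyPU, hyN⟩ := hy
      have hyH : y ∈ H := (Subgroup.mem_inf.mp (hPUT hyPU)).2
      have hwact : ∀ x ∈ P, (n * y * n⁻¹) * (h * x * h⁻¹) * (n * y * n⁻¹)⁻¹
          = h * (y * x * y⁻¹) * h⁻¹ := by
        intro x hx
        rw [← hnP x hx, ← hnP _ (conj_mem_of_mem_normalizer' hyN hx)]
        group
      have hwN : n * y * n⁻¹ ∈ Subgroup.normalizer ((cj h P : Subgroup G) : Set G) := by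
        apply mem_normalizer_of_conj_le
        intro q hq
        obtain ⟨x, hx, rfl⟩ := Subgroup.mem_map.mp hq
        change (n * y * n⁻¹) * (h * x * h⁻¹) * (n * y * n⁻¹)⁻¹ ∈ cj h P
        rw [hwact x hx]
        exact cj_mem (conj_mem_of_mem_normalizer' hyN hx)
      refine ⟨n * y * n⁻¹, Subgroup.mem_inf.mpr ⟨hnPU y hyPU, hwN⟩,
        (n * y * n⁻¹)⁻¹ * (h * y * h⁻¹), ?_, by group⟩
      refine Subgroup.mem_inf.mpr ⟨?_, ?_⟩
      · exact H.mul_mem (H.inv_mem (hH.conj_mem y hyH n)) (hH.conj_mem y hyH h)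
      · rw [Subgroup.mem_centralizer_iff]
        intro q hq
        obtain ⟨x, hx, rfl⟩ := Subgroup.mem_map.mp hq
        change (h * x * h⁻¹) * ((n * y * n⁻¹)⁻¹ * (h * y * h⁻¹))
          = ((n * y * n⁻¹)⁻¹ * (h * y * h⁻¹)) * (h * x * h⁻¹)
        have h1 := hwact x hx
        have h2 : (h * x * h⁻¹) * (n * y * n⁻¹)⁻¹
            = (n * y * n⁻¹)⁻¹ * (h * (y * x * y⁻¹) * h⁻¹) := by
          rw [← h1]; group
        calc (h * x * h⁻¹) * ((n * y * n⁻¹)⁻¹ * (h * y * h⁻¹))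
            = ((h * x * h⁻¹) * (n * y * n⁻¹)⁻¹) * (h * y * h⁻¹) := by group
          _ = (n * y * n⁻¹)⁻¹ * (h * (y * x * y⁻¹) * h⁻¹) * (h * y * h⁻¹) := by rw [h2]
          _ = ((n * y * n⁻¹)⁻¹ * (h * y * h⁻¹)) * (h * x * h⁻¹) := by group
    have hDp : IsPGroup p (cj h P₁ : Subgroup G) := isPGroup_cj (hTp.to_le hP₁T)
    have hKN : H ⊓ Subgroup.centralizer ((cj h P : Subgroup G) : Set G)
        ≤ H ⊓ Subgroup.normalizer ((cj h P : Subgroup G) : Set G) :=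
      inf_le_inf_left _ (Subgroup.centralizer_le_normalizer _)
    have hKnorm : ∀ x ∈ H ⊓ Subgroup.normalizer ((cj h P : Subgroup G) : Set G),
        ∀ k ∈ H ⊓ Subgroup.centralizer ((cj h P : Subgroup G) : Set G),
          x * k * x⁻¹ ∈ H ⊓ Subgroup.centralizer ((cj h P : Subgroup G) : Set G) := by
      intro x hx k hk
      rw [Subgroup.mem_inf] at hx hk ⊢
      refine ⟨H.mul_mem (H.mul_mem hx.1 hk.1) (H.inv_mem hx.1), ?_⟩
      rw [Subgroup.mem_centralizer_iff]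
      intro q hq
      have hq' : x⁻¹ * q * x ∈ cj h P := inv_conj_mem_of_mem_normalizer hx.2 hq
      have h1 := (Subgroup.mem_centralizer_iff.mp hk.2) _ hq'
      calc q * (x * k * x⁻¹) = x * ((x⁻¹ * q * x) * k) * x⁻¹ := by group
        _ = x * (k * (x⁻¹ * q * x)) * x⁻¹ := by rw [h1]
        _ = x * k * x⁻¹ * q := by group
    obtain ⟨k, hk, hkD⟩ := hfn.conj_by_normal hKN hKnorm hDp (by
      intro d hd
      rw [mem_cj] at hd
      obtain ⟨w, hw, v, hv, e⟩ := hkey _ hd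
      refine ⟨w, hw, v, hv, ?_⟩
      rw [← e]; group)
    rw [Subgroup.mem_inf] at hk
    have hkP : ∀ x ∈ P, k * (h * x * h⁻¹) * k⁻¹ = h * x * h⁻¹ := by
      intro x hx
      have h0 := (Subgroup.mem_centralizer_iff.mp hk.2) (h * x * h⁻¹) (cj_mem hx)
      rw [← h0]; group
    obtain ⟨h', hh', hh'U, hh'P⟩ := IH P₁ hP₁T hlt (k * h) (H.mul_mem hk.1 hh) (by
      intro y hy
      have h0 := hkD (h * y * h⁻¹) (cj_mem hy)
      have e : k * h * y * (k * h)⁻¹ = k * (h * y * h⁻¹) * k⁻¹ := by group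
      rw [e]
      exact (Subgroup.mem_inf.mp h0).1)
    refine ⟨h', hh', hh'U, fun x hx => ?_⟩
    rw [hh'P x (hPP₁ hx), ← hkP x hx]
    group

end

/-- **FC-EXTH**: a subgroup of `S ∩ H` that is "normal in `F_S(G)`" is "normal in
`F_{S ∩ H}(H)`". -/
theorem fc_exth : ExtHStmt.{u} := by
  intro G _ _ p _ S H U hS hH hUT hExt
  have hSp : IsPGroup p S := by
    obtain ⟨R, rfl⟩ := hS; exact R.isPGroup'
  have hT : SylIn p (S ⊓ H) H := sylIn_inf_normal hS hH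
  have main : ∀ (n : ℕ) (P : Subgroup G), P ≤ S ⊓ H →
      Nat.card (S ⊓ H : Subgroup G) - Nat.card P = n →
      ∀ h ∈ H, (∀ x ∈ P, h * x * h⁻¹ ∈ S ⊓ H) →
      ∃ h' ∈ H, h' ∈ Subgroup.normalizer (U : Set G) ∧
        ∀ x ∈ P, h' * x * h'⁻¹ = h * x * h⁻¹ := by
    intro n
    induction n using Nat.strong_induction_on with
    | _ n ih =>
      intro P hPT hn h hh hPh
      have IH : ∀ c : ℕ, c = Nat.card P → ∀ P₁ : Subgroup G, P₁ ≤ S ⊓ H →
          c < Nat.card P₁ → ∀ h₁ ∈ H, (∀ x ∈ P₁, h₁ * x * h₁⁻¹ ∈ S ⊓ H) →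
          ∃ h' ∈ H, h' ∈ Subgroup.normalizer (U : Set G) ∧
            ∀ x ∈ P₁, h' * x * h'⁻¹ = h₁ * x * h₁⁻¹ := by
        intro c hc P₁ hP₁ hlt h₁ hh₁ hc₁
        have hle : Nat.card P₁ ≤ Nat.card (S ⊓ H : Subgroup G) := Subgroup.card_le_of_le hP₁
        exact ih (Nat.card (S ⊓ H : Subgroup G) - Nat.card P₁) (by omega) P₁ hP₁ rfl h₁ hh₁ hc₁
      obtain ⟨a, ha, haP, hfn⟩ := exists_fully_normalized hT P hPT
      obtain ⟨a', ha', ha'U, ha'P⟩ := step1 hSp hH hUT hExt P hPT a ha haP hfn (IH _ rfl)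
      have hQT : cj h P ≤ S ⊓ H := by
        intro q hq
        rw [mem_cj] at hq
        have h0 := hPh _ hq
        have e : h * (h⁻¹ * q * h) * h⁻¹ = q := by group
        rwa [e] at h0
      have hcj : cj (a * h⁻¹) (cj h P) = cj a P := by
        ext y
        rw [mem_cj, mem_cj, mem_cj]
        have e : h⁻¹ * ((a * h⁻¹)⁻¹ * y * (a * h⁻¹)) * h = a⁻¹ * y * a := by group
        rw [e]
      have hbQ : ∀ q ∈ cj h P, a * h⁻¹ * q * (a * h⁻¹)⁻¹ ∈ S ⊓ H := by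
        intro q hq
        rw [mem_cj] at hq
        have h0 := haP _ hq
        have e : a * (h⁻¹ * q * h) * a⁻¹ = a * h⁻¹ * q * (a * h⁻¹)⁻¹ := by group
        rwa [e] at h0
      have hfn' : SylIn p
          ((S ⊓ H) ⊓ Subgroup.normalizer ((cj (a * h⁻¹) (cj h P) : Subgroup G) : Set G))
          (H ⊓ Subgroup.normalizer ((cj (a * h⁻¹) (cj h P) : Subgroup G) : Set G)) := by
        rw [hcj]; exact hfn
      obtain ⟨b', hb', hb'U, hb'P⟩ := step1 hSp hH hUT hExt (cj h P) hQT (a * h⁻¹)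
        (H.mul_mem ha (H.inv_mem hh)) hbQ hfn' (IH _ (card_cj h P))
      refine ⟨b'⁻¹ * a', H.mul_mem (H.inv_mem hb') ha',
        Subgroup.mul_mem _ (Subgroup.inv_mem _ hb'U) ha'U, fun x hx => ?_⟩
      have h1 := ha'P x hx
      have h2 := hb'P (h * x * h⁻¹) (cj_mem hx)
      have e1 : b'⁻¹ * a' * x * (b'⁻¹ * a')⁻¹ = b'⁻¹ * (a' * x * a'⁻¹) * b' := by group
      have e2 : a * h⁻¹ * (h * x * h⁻¹) * (a * h⁻¹)⁻¹ = a * x * a⁻¹ := by group
      rw [e1, h1, ← e2, ← h2]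
      group
  intro P hPT h hh hPh
  exact main _ P hPT rfl h hh hPh

end Cfsg.Agent.Lib.Helper2.FC
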