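import Mathlib
import Cfsg.Agent.Lib.Helper52.QuadFin
import Cfsg.Agent.Lib.Helper51.Gram

set_option autoImplicit false

/-! Piece GT-PLUS of S2700 (helper2 for helper53): a symmetric matrix `N` of size `2m` over a finite
field of odd characteristic with `(-1)^m det N` a square defines a form isometric to
`quadFormPlus m`. The core lemma `h2_equiv_of_gram` works for any quadratic form on `ι → F`. -/

namespace Cfsg.Agent.Lib.Helper2.GTPLUS

open Matrix Cfsg Cfsg.Agent.Lib.Helper51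

theorem h2_QN_apply {F : Type*} [Field F] {n : ℕ} (N : Matrix (Fin n) (Fin n) F)
    (v : Fin n → F) : Matrix.toQuadraticForm' N v = v ⬝ᵥ (N *ᵥ v) := by
  show Matrix.toLinearMap₂' F N v v = _
  rw [Matrix.toLinearMap₂'_apply']

theorem h2_gram_QN {F : Type*} [Field F] {n : ℕ} (N : Matrix (Fin n) (Fin n) F)
    (hN : N.transpose = N) : Cfsg.Agent.Lib.Helper51.gram (Matrix.toQuadraticForm' N) = (2 : F) • N := by
  ext i j
  rw [Cfsg.Agent.Lib.Helper51.gram_apply]
  rw [QuadraticMap.polar, h2_QN_apply, h2_QN_apply, h2_QN_apply]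
  have h3 := congrFun (congrFun hN i) j
  rw [Matrix.transpose_apply] at h3
  simp only [Matrix.mulVec_add, dotProduct_add, add_dotProduct, Matrix.mulVec_single_one,
    single_one_dotProduct, Matrix.col_apply, Matrix.smul_apply, smul_eq_mul]
  rw [h3]
  ring

theorem h2_det_gram_QN {F : Type*} [Field F] {n : ℕ} (N : Matrix (Fin n) (Fin n) F)
    (hN : N.transpose = N) : (Cfsg.Agent.Lib.Helper51.gram (Matrix.toQuadraticForm' N)).det = 2 ^ n * N.det := by
  rw [h2_gram_QN N hN, Matrix.det_smul, Fintype.card_fin]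

/-- core: a quadratic form on `ι → F` and the form of a symmetric matrix `N` of the same size
are isometric when the product of the Gram determinants is a square -/
theorem h2_equiv_of_gram {F : Type*} [Field F] [Fintype F] (h2 : (2 : F) ≠ 0)
    {ι : Type} [Fintype ι] [DecidableEq ι] {n : ℕ}
    (Q : QuadraticForm F (ι → F)) (hQ : (Cfsg.Agent.Lib.Helper51.gram Q).det ≠ 0) (hcard : Fintype.card ι = n)
    (N : Matrix (Fin n) (Fin n) F) (hN : N.transpose = N) (hdet : N.det ≠ 0)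
    (hsq : IsSquare ((Cfsg.Agent.Lib.Helper51.gram Q).det * (2 ^ n * N.det))) :
    ∃ e : (ι → F) ≃ₗ[F] (Fin n → F), ∀ v, e v ⬝ᵥ (N *ᵥ e v) = Q v := by
  have hdN : (Cfsg.Agent.Lib.Helper51.gram (Matrix.toQuadraticForm' N)).det ≠ 0 := by
    rw [h2_det_gram_QN N hN]
    exact mul_ne_zero (pow_ne_zero _ h2) hdet
  have h₁ := nondegenerate_of_det_gram_ne_zero Q hQ
  have h₂ := nondegenerate_of_det_gram_ne_zero (Matrix.toQuadraticForm' N) hdN
  have hdim : Module.finrank F (ι → F) = Module.finrank F (Fin n → F) := by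
    rw [Module.finrank_fintype_fun_eq_card, Module.finrank_fintype_fun_eq_card, hcard,
      Fintype.card_fin]
  have hE : QuadraticMap.Equivalent Q (Matrix.toQuadraticForm' N) := by
    refine Cfsg.Agent.Lib.Helper52.equivalent_of_gram h2 Q (Matrix.toQuadraticForm' N) h₁ h₂ hdim
      (Pi.basisFun F ι) (Pi.basisFun F (Fin n)) ?_
    have e1 : (Matrix.of (fun i j : ι => QuadraticMap.polar (⇑Q) (Pi.basisFun F ι i)
        (Pi.basisFun F ι j))) = Cfsg.Agent.Lib.Helper51.gram Q := by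
      ext i j
      rw [Matrix.of_apply, Pi.basisFun_apply, Pi.basisFun_apply, Cfsg.Agent.Lib.Helper51.gram_apply]
    have e2 : (Matrix.of (fun i j : Fin n => QuadraticMap.polar (⇑(Matrix.toQuadraticForm' N))
        (Pi.basisFun F (Fin n) i) (Pi.basisFun F (Fin n) j))) =
        Cfsg.Agent.Lib.Helper51.gram (Matrix.toQuadraticForm' N) := by
      ext i j
      rw [Matrix.of_apply, Pi.basisFun_apply, Pi.basisFun_apply, Cfsg.Agent.Lib.Helper51.gram_apply]
    rw [e1, e2, h2_det_gram_QN N hN]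
    exact hsq
  obtain ⟨T⟩ := hE
  refine ⟨T.toLinearEquiv, fun v => ?_⟩
  rw [← h2_QN_apply]
  exact T.map_app v

/-- GT-PLUS -/
theorem form_plus {F : Type*} [Field F] [Fintype F] (h2 : (2 : F) ≠ 0) (m : ℕ)
    (N : Matrix (Fin (2 * m)) (Fin (2 * m)) F) (hN : N.transpose = N) (hdet : N.det ≠ 0)
    (hsq : IsSquare ((-1) ^ m * N.det)) :
    ∃ e : (Fin m ⊕ Fin m → F) ≃ₗ[F] (Fin (2 * m) → F),
      ∀ v, e v ⬝ᵥ (N *ᵥ e v) = Cfsg.quadFormPlus m F v := by
  have hQ : (Cfsg.Agent.Lib.Helper51.gram (QPlus m F)).det ≠ 0 := by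
    rw [det_gram_QPlus]
    exact pow_ne_zero _ (neg_ne_zero.mpr one_ne_zero)
  have hcard : Fintype.card (Fin m ⊕ Fin m) = 2 * m := by
    rw [Fintype.card_sum, Fintype.card_fin]; ring
  have hsq' : IsSquare ((Cfsg.Agent.Lib.Helper51.gram (QPlus m F)).det * (2 ^ (2 * m) * N.det)) := by
    obtain ⟨r, hr⟩ := hsq
    refine ⟨2 ^ m * r, ?_⟩
    rw [det_gram_QPlus]
    have : (2 : F) ^ (2 * m) = 2 ^ m * 2 ^ m := by rw [two_mul, pow_add]
    rw [this]
    linear_combination (2 ^ m * 2 ^ m : F) * hr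
  obtain ⟨e, he⟩ := h2_equiv_of_gram h2 (QPlus m F) hQ hcard N hN hdet hsq'
  refine ⟨e, fun v => ?_⟩
  rw [he v, coe_QPlus]

end Cfsg.Agent.Lib.Helper2.GTPLUS
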