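import Cfsg.Agent.Lib.Helper2.Gaschutz

set_option autoImplicit false

namespace Cfsg.Agent.Lib.Helper2

open scoped IsMulCommutative
open Pointwise

section Gaschutz2

variable {G : Type*} [Group G] (K : Subgroup G) [K.Normal] [IsMulCommutative K]

omit [IsMulCommutative K] in
theorem cn_cn (a b : G) (x : K) :
    MulAut.conjNormal a (MulAut.conjNormal b x) = MulAut.conjNormal (a * b) x := by
  rw [map_mul, MulAut.mul_apply]

/-- a crossed homomorphism `G → K` vanishing on a subgroup of index coprime to `|K|` is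
principal. -/
theorem crossed_principal [Finite G] (U : Subgroup G) (hcop : (Nat.card K).Coprime U.index)
    (δ : G → K) (hδ : IsCrossedOn K ⊤ δ) (hδU : ∀ u ∈ U, δ u = 1) :
    ∃ d : K, ∀ h, δ h = MulAut.conjNormal h⁻¹ d * d⁻¹ := by
  classical
  letI : Fintype (G ⧸ U) := Fintype.ofFinite _
  let s : G ⧸ U → G := Quotient.out
  have hs : ∀ q : G ⧸ U, ((s q : G) : G ⧸ U) = q := fun q => QuotientGroup.out_eq' q
  let γ : G → K := fun g => MulAut.conjNormal g (δ g)
  have hγU : ∀ g, ∀ u ∈ U, γ (g * u) = γ g := by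
    intro g u hu
    simp only [γ]
    rw [hδ g (Subgroup.mem_top _) u (Subgroup.mem_top _), hδU u hu, mul_one, cn_cn,
      mul_inv_cancel_right]
  have hγs : ∀ g : G, γ (s (g : G ⧸ U)) = γ g := by
    intro g
    have h1 : g⁻¹ * s (g : G ⧸ U) ∈ U := QuotientGroup.eq.1 (hs _).symm
    have h2 : s (g : G ⧸ U) = g * (g⁻¹ * s (g : G ⧸ U)) := by group
    rw [h2, hγU g _ h1]
  have hγmul : ∀ h g, γ (h * g) = γ h * MulAut.conjNormal h (γ g) := by
    intro h g
    simp only [γ]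
    rw [hδ h (Subgroup.mem_top _) g (Subgroup.mem_top _),
      map_mul (MulAut.conjNormal (h * g)) _ _, cn_cn, mul_inv_cancel_right, cn_cn]
  let c : K := ∏ q : G ⧸ U, γ (s q)
  have hc : ∀ h : G, c = γ h ^ U.index * MulAut.conjNormal h c := by
    intro h
    have h1 : ∏ q : G ⧸ U, γ (h * s q) = c := by
      have : ∀ q : G ⧸ U, γ (h * s q) = γ (s (h • q)) := by
        intro q
        rw [← hγs (h * s q)]
        congr 2
        rw [← smul_eq_mul, ← MulAction.Quotient.smul_coe, hs]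
      rw [Finset.prod_congr rfl (fun q _ => this q)]
      exact Fintype.prod_equiv (MulAction.toPerm h) _ _ (fun q => rfl)
    have h2 : ∏ q : G ⧸ U, γ (h * s q) = γ h ^ U.index * MulAut.conjNormal h c := by
      simp only [c]
      rw [Finset.prod_congr rfl (fun q _ => hγmul h (s q)), Finset.prod_mul_distrib,
        Finset.prod_const, Finset.card_univ, ← map_prod, Subgroup.index,
        Nat.card_eq_fintype_card]
    exact h1.symm.trans h2
  obtain ⟨d, hd⟩ := (powCoprime hcop).surjective c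
  rw [powCoprime_apply] at hd
  refine ⟨d, fun h => ?_⟩
  apply (powCoprime hcop).injective
  rw [powCoprime_apply, powCoprime_apply, mul_pow, inv_pow, ← map_pow, hd]
  have h3 := hc h
  have h4 : MulAut.conjNormal h⁻¹ c = δ h ^ U.index * c := by
    conv_lhs => rw [h3]
    simp only [γ]
    rw [map_mul, map_pow, cn_cn, cn_cn, inv_mul_cancel, map_one, MulAut.one_apply,
      MulAut.one_apply]
  rw [h4, mul_inv_cancel_right]

/-- Gaschütz, conjugacy. -/
theorem gaschutz_conj [Finite G] (U : Subgroup G) (hKU : K ≤ U)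
    (hcop : (Nat.card K).Coprime U.index)
    (H₀ H₁ : Subgroup G) (h₀ : Subgroup.IsComplement' K H₀) (h₁ : Subgroup.IsComplement' K H₁)
    (hU : H₀ ⊓ U = H₁ ⊓ U) :
    ∃ g : G, MulAut.conj g • H₀ = H₁ := by
  have hb₀ : H₀ ⊓ K = ⊥ := by rw [inf_comm]; exact h₀.disjoint.eq_bot
  have hb₁ : H₁ ⊓ K = ⊥ := by rw [inf_comm]; exact h₁.disjoint.eq_bot
  have ht₀ : K ⊔ H₀ = ⊤ := h₀.sup_eq_top
  have ht₁ : K ⊔ H₁ = ⊤ := h₁.sup_eq_top
  have hφ₀ : IsCrossedOn K ⊤ (kpart K H₀) := ht₀ ▸ kpart_crossed K H₀ hb₀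
  have hφ₁ : IsCrossedOn K ⊤ (kpart K H₁) := ht₁ ▸ kpart_crossed K H₁ hb₁
  have hmem₀ : ∀ g : G, g ∈ K ⊔ H₀ := fun g => ht₀ ▸ Subgroup.mem_top g
  have hmem₁ : ∀ g : G, g ∈ K ⊔ H₁ := fun g => ht₁ ▸ Subgroup.mem_top g
  let δ : G → K := fun g => kpart K H₀ g * (kpart K H₁ g)⁻¹
  have hδ : IsCrossedOn K ⊤ δ := by
    intro g _ h _
    simp only [δ]
    rw [hφ₀ g (Subgroup.mem_top _) h (Subgroup.mem_top _),
      hφ₁ g (Subgroup.mem_top _) h (Subgroup.mem_top _), map_mul (MulAut.conjNormal h⁻¹) _ _,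
      map_inv (MulAut.conjNormal h⁻¹) _, mul_inv, mul_mul_mul_comm]
  have hδU : ∀ u ∈ U, δ u = 1 := by
    intro u hu
    simp only [δ]
    rw [mul_inv_eq_one]
    symm
    rw [kpart_eq_iff K H₁ hb₁ (hmem₁ u)]
    have h1 : u * ((kpart K H₀ u : K) : G)⁻¹ ∈ H₀ := (kpart_eq_iff K H₀ hb₀ (hmem₀ u) _).1 rfl
    have h2 : u * ((kpart K H₀ u : K) : G)⁻¹ ∈ U :=
      U.mul_mem hu (U.inv_mem (hKU (SetLike.coe_mem _)))
    have h3 : u * ((kpart K H₀ u : K) : G)⁻¹ ∈ H₀ ⊓ U := ⟨h1, h2⟩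
    rw [hU] at h3
    exact h3.1
  obtain ⟨d, hd⟩ := crossed_principal K U hcop δ hδ hδU
  have hcomm : ∀ a e : K, a * (a * e⁻¹)⁻¹ * e⁻¹ = 1 := by
    intro a e
    rw [mul_inv, inv_inv, mul_assoc, mul_assoc, mul_inv_cancel, mul_one, mul_inv_cancel]
  refine ⟨(d : G), ?_⟩
  apply Subgroup.eq_of_le_of_card_ge
  · intro x hx
    rw [Subgroup.mem_pointwise_smul_iff_inv_smul_mem, MulAut.smul_def, ← map_inv,
      MulAut.conj_apply, inv_inv] at hx
    -- hx : d⁻¹ * x * d ∈ H₀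
    set h := (d : G)⁻¹ * x * d with hh
    have hx' : x = (d : G) * h * ((d⁻¹ : K) : G) := by
      rw [hh, Subgroup.coe_inv]; group
    have hk0 : kpart K H₀ h = 1 := by
      rw [kpart_eq_iff K H₀ hb₀ (hmem₀ h)]
      simpa using hx
    have hk1 : (kpart K H₁ h)⁻¹ = MulAut.conjNormal h⁻¹ d * d⁻¹ := by
      have := hd h
      simp only [δ] at this
      rw [hk0, one_mul] at this
      exact this
    have hk1' : kpart K H₁ h = (MulAut.conjNormal h⁻¹ d * d⁻¹)⁻¹ := by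
      rw [← hk1, inv_inv]
    have hx1 : kpart K H₁ x = 1 := by
      rw [hx', hφ₁ _ (Subgroup.mem_top _) _ (Subgroup.mem_top _),
        hφ₁ _ (Subgroup.mem_top _) _ (Subgroup.mem_top _), kpart_of_mem K H₁ hb₁,
        kpart_of_mem K H₁ hb₁, conjNormal_of_mem K (K.inv_mem (SetLike.coe_mem _)), hk1']
      exact hcomm _ _
    have := (kpart_eq_iff K H₁ hb₁ (hmem₁ x) 1).1 hx1
    simpa using this
  · rw [← h₁.symm.index_eq_card, h₀.symm.index_eq_card]
    exact (Nat.card_congr (Subgroup.equivSMul (MulAut.conj (d : G)) H₀).toEquiv).le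

end Gaschutz2

end Cfsg.Agent.Lib.Helper2
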