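import Mathlib
import Cfsg.Agent.Lib.Helper22.HPDefs
import Cfsg.Agent.Lib.Helper83.IrrBasic

/-!
# S4504 / HP-RECOG, sub-piece ORDER: Sylow counting.
-/

set_option autoImplicit false
set_option linter.style.haveILetI false

namespace Cfsg.Agent.Lib.Helper2.HPR

open Cfsg Cfsg.Agent.Lib.Helper22.BFD Cfsg.Agent.Lib.Helper22.HPD

universe u

theorem hprorder_arith (p e : ℕ) (hp : p.Prime) (h2e : 2 * e + 1 = p) (n c g : ℕ) (hc : 0 < c)
    (hn1 : n ≠ 1) (hmod : n % p = 1) (hmul : p * e * c * n = g)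
    (hord : 2 * g ≤ c * (p * (p ^ 2 - 1))) : n = p + 1 := by
  have hp2 := hp.two_le
  have he : 1 ≤ e := by omega
  have hsq : p ^ 2 - 1 = 4 * e * (e + 1) := by
    rw [← h2e]
    exact Nat.sub_eq_of_eq_add (by ring)
  rw [hsq, ← hmul] at hord
  have h3 : (2 * p * e * c) * n ≤ (2 * p * e * c) * (2 * (e + 1)) := by
    calc (2 * p * e * c) * n = 2 * (p * e * c * n) := by ring
      _ ≤ c * (p * (4 * e * (e + 1))) := hord
      _ = (2 * p * e * c) * (2 * (e + 1)) := by ring
  have hpos : 0 < 2 * p * e * c :=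
    Nat.mul_pos (Nat.mul_pos (Nat.mul_pos two_pos hp.pos) he) hc
  have hle : n ≤ 2 * (e + 1) := Nat.le_of_mul_le_mul_left h3 hpos
  obtain ⟨k, hk⟩ : ∃ k, n = p * k + 1 := ⟨n / p, by
    have h0 := Nat.div_add_mod n p
    omega⟩
  rcases k with _ | _ | k
  · omega
  · omega
  · exfalso
    have h4 : p * 2 ≤ p * (k + 1 + 1) := Nat.mul_le_mul_left p (by omega)
    omega

/-- SUB-PIECE ORDER: Sylow counting: `p + 1` Sylow `p`-subgroups and `|G| = (p+1) p e |Z(G)|` -/
theorem recog_order {G : Type u} [Group G] [Fintype G] (p : ℕ) [Fact p.Prime] (e : ℕ)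
    (h2e : 2 * e + 1 = p) (hsq : ¬ p ^ 2 ∣ Nat.card G)
    (hnn : ∀ H : Subgroup G, H.Normal → Nat.card H ≠ p)
    (z : G) (hz : orderOf z = p)
    (hN : Nat.card (Subgroup.normalizer ((Subgroup.zpowers z : Subgroup G) : Set G)) =
      p * e * Nat.card (Subgroup.center G))
    (hord : 2 * Nat.card G ≤ Nat.card (Subgroup.center G) * (p * (p ^ 2 - 1))) :
    Nat.card (Sylow p G) = p + 1 ∧
      Nat.card G = (p + 1) * p * e * Nat.card (Subgroup.center G) := by
  have hp : p.Prime := Fact.out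
  have hpG : p ∣ Nat.card G := hz ▸ orderOf_dvd_natCard z
  have hG0 : Nat.card G ≠ 0 := Nat.card_pos.ne'
  have hfac : (Nat.card G).factorization p = 1 := by
    have h1 : 1 ≤ (Nat.card G).factorization p :=
      (hp.dvd_iff_one_le_factorization hG0).mp hpG
    have h2 : ¬ 2 ≤ (Nat.card G).factorization p := by
      intro h
      exact hsq ((hp.pow_dvd_iff_le_factorization hG0).mpr h)
    omega
  have hcz : Nat.card (Subgroup.zpowers z) = p ^ (Nat.card G).factorization p := by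
    rw [hfac, pow_one, Nat.card_zpowers, hz]
  obtain ⟨Q, hQ⟩ : ∃ Q : Sylow p G, (Q : Subgroup G) = Subgroup.zpowers z :=
    ⟨Sylow.ofCard (Subgroup.zpowers z) hcz, Sylow.coe_ofCard _ _⟩
  have hn1 : Nat.card (Sylow p G) ≠ 1 := by
    intro h1
    haveI : Subsingleton (Sylow p G) := (Nat.card_eq_one_iff_unique.mp h1).1
    have hnorm : (Q : Subgroup G).Normal := Sylow.normal_of_subsingleton Q
    rw [hQ] at hnorm
    exact hnn _ hnorm (by rw [Nat.card_zpowers, hz])
  have hmod : Nat.card (Sylow p G) % p = 1 := by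
    have h0 : Nat.card (Sylow p G) ≡ 1 [MOD p] := card_sylow_modEq_one p G
    have h1 : 1 % p = 1 := Nat.mod_eq_of_lt hp.one_lt
    rw [← h1]
    exact h0
  have hidx : Nat.card (Sylow p G) =
      (Subgroup.normalizer ((Subgroup.zpowers z : Subgroup G) : Set G)).index :=
    (Sylow.card_eq_index_normalizer Q).trans (by rw [← hQ]; first | rfl | done)
  have hmul := (Subgroup.normalizer ((Subgroup.zpowers z : Subgroup G) : Set G)).card_mul_index
  rw [← hidx, hN] at hmul
  have hcpos : 0 < Nat.card (Subgroup.center G) := Nat.card_pos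
  have hnp := hprorder_arith p e hp h2e _ _ _ hcpos hn1 hmod hmul hord
  refine ⟨hnp, ?_⟩
  rw [← hmul, hnp]
  ring

end Cfsg.Agent.Lib.Helper2.HPR
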