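import Cfsg.Agent.Lib.Helper96.HyDefs
import Cfsg.Agent.Lib.Helper30.O72WITT

/-!
Project HE (S5993, helper96), piece WITTTYP: isometries are transitive on non-degenerate
subspaces of a given dimension and type (classification of quadratic spaces by type + Witt
extension).
-/

set_option autoImplicit false
set_option linter.unusedSectionVars false
set_option linter.unusedVariables false

namespace Cfsg.Agent.Lib.Helper2.He

open Module Polynomial Cfsg.Agent.Lib.Helper96.Sp Cfsg.Agent.Lib.Helper96.Hy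
  Cfsg.Agent.Lib.Helper47

universe u

section Abstract

variable {F : Type u} [Field F] [Fintype F] {V : Type u} [AddCommGroup V] [Module F V]
  [FiniteDimensional F V] {B : LinearMap.BilinForm F V}

-- PIECE WITTTYP
theorem witt_typ (p : ℕ) [Fact p.Prime] [CharP F p] (hS : B.IsSymm) (h2 : (2 : F) ≠ 0)
    (hN : ND B ⊤) (ε : ℤ) (W W' : Submodule F V) (hW : ND B W) (hW' : ND B W')
    (hT : Typ B W ε) (hT' : Typ B W' ε) (hfin : finrank F W = finrank F W') :
    ∃ h : V ≃ₗ[F] V, Isom B (h : V →ₗ[F] V) ∧ W.map (h : V →ₗ[F] V) = W' := by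
  obtain ⟨k, hk, hT⟩ := hT
  obtain ⟨k', hk', hT'⟩ := hT'
  have hkk : k = k' := by omega
  subst hkk
  obtain ⟨φ, hφ⟩ := (qfacts (F := F) p).isometric k ε W W' _ _ _ _ (isQuad_sub hS W)
    (nondeg_sub h2 W hW) hk (isQuad_sub hS W') (nondeg_sub h2 W' hW') hk' hT hT'
  obtain ⟨g, hg, hgx⟩ := Cfsg.Agent.Lib.Helper98.O72.witt_ext hS h2 hN W W' φ (fun x => hφ x)
  refine ⟨g, hg, ?_⟩
  apply le_antisymm
  · rintro _ ⟨x, hx, rfl⟩
    have h1 := hgx ⟨x, hx⟩
    have h3 : (g : V →ₗ[F] V) x = (φ ⟨x, hx⟩ : V) := h1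
    rw [h3]
    exact (φ ⟨x, hx⟩).2
  · intro y hy
    refine ⟨(φ.symm ⟨y, hy⟩ : V), (φ.symm ⟨y, hy⟩).2, ?_⟩
    have h1 := hgx (φ.symm ⟨y, hy⟩)
    rw [LinearEquiv.apply_symm_apply] at h1
    exact h1

end Abstract

end Cfsg.Agent.Lib.Helper2.He
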