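import Mathlib
import Cfsg.Agent.Lib.Helper78.JNDefs

/-!
# Project JN (S2944, helper78), piece OFFX

Transport of the offender lemma from `V ⋊ Aut V` to the setting `(X, T)`.
-/

set_option autoImplicit false

namespace Cfsg.Agent.Lib.Helper2.JN

open Cfsg.Agent.Lib.Helper78.JN Cfsg.Agent.Lib.Helper72.JL Cfsg.Agent.Lib.Helper72.SC
  Cfsg.Agent.Lib.Helper78.Jc

open scoped commutatorElement

universe u

theorem offx_comm_iff {V : Type*} [Group V] (a : MulAut V) (v : V) :
    (SemidirectProduct.inr a : Gam V) * SemidirectProduct.inl v =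
      SemidirectProduct.inl v * SemidirectProduct.inr a ↔ a v = v := by
  have h2 : (SemidirectProduct.inl (a v) : Gam V) =
      SemidirectProduct.inr a * SemidirectProduct.inl v * SemidirectProduct.inr a⁻¹ :=
    SemidirectProduct.inl_aut a v
  constructor
  · intro h1
    have h3 : (SemidirectProduct.inl (a v) : Gam V) = SemidirectProduct.inl v := by
      rw [h2, h1, mul_assoc, ← map_mul, mul_inv_cancel, map_one, mul_one]
    exact SemidirectProduct.inl_injective h3
  · intro h1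
    have h3 : (SemidirectProduct.inl v : Gam V) =
        SemidirectProduct.inr a * SemidirectProduct.inl v * SemidirectProduct.inr a⁻¹ := by
      rw [← h2, h1]
    calc (SemidirectProduct.inr a : Gam V) * SemidirectProduct.inl v
        = SemidirectProduct.inr a * SemidirectProduct.inl v * SemidirectProduct.inr a⁻¹ *
            SemidirectProduct.inr a := by
          rw [mul_assoc _ (SemidirectProduct.inr a⁻¹), ← map_mul, inv_mul_cancel, map_one,
            mul_one]
      _ = SemidirectProduct.inl v * SemidirectProduct.inr a := by rw [← h3]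

theorem offx_rho_val {X : Type*} [Group X] (T : Subgroup X) (b : X) (v : ↥(VT T)) :
    ((rhoT T b v : ↥(VT T)) : X) = b * (v : X) * b⁻¹ := rfl

theorem offx (h1 : OffgStmt.{u}) (h2 : FfaStmt.{u}) (h3 : FfbStmt.{u}) (h4 : BoStmt.{u})
    (h5 : O2Stmt.{u}) (h6 : PsStmt.{u}) (h7 : VabStmt.{u}) : OffxStmt.{u} := by
  intro X _ _ T hset A hA y hy3 hyH hnc W hW hWV
  have : Fact (Nat.Prime 2) := ⟨Nat.prime_two⟩
  obtain ⟨_, hcomm, hsq, _, _⟩ := h7 X T hset
  have hcomm' : ∀ a b : ↥(VT T), a * b = b * a := fun a b =>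
    Subtype.ext (hcomm a.1 a.2 b.1 b.2)
  have hsq' : ∀ v : ↥(VT T), v ^ 2 = 1 := fun v => Subtype.ext (by
    show (v.1) ^ 2 = 1
    rw [sq]; exact hsq v.1 v.2)
  obtain ⟨hVsEA, hHsle, hnorm, hHsNV, hHsCV, hHsSup⟩ :=
    h2 ↥(VT T) 2 (rhoT T).range hcomm' hsq'
  have hffb := h3 ↥(VT T) 2 (rhoT T).range hcomm' hsq' (h6 X T hset) (h5 X T hset)
  have hbo := h4 X T hset A hA
  have hle : up (A.map (rhoT T)) ≤ up (rhoT T).range :=
    Subgroup.map_mono (Subgroup.map_le_range (rhoT T) A)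
  have hle2 : up (A.map (rhoT T)) ≤ Hs 2 (rhoT T).range :=
    le_iSup (fun A : {A : Subgroup (Gam ↥(VT T)) // A ≤ up (rhoT T).range ∧
      Cfsg.IsBestOffenderOn 2 (Vs ↥(VT T)) A} => (A : Subgroup (Gam ↥(VT T))))
      ⟨up (A.map (rhoT T)), hle, hbo⟩
  -- the element `z`
  obtain ⟨z, hzdef⟩ : ∃ z : Gam ↥(VT T), z = SemidirectProduct.inr (rhoT T y) := ⟨_, rfl⟩
  have hzH : z ∈ Hs 2 (rhoT T).range := by rw [hzdef]; exact hyH
  have hz3 : z ^ 3 = 1 := by rw [hzdef, ← map_pow, hy3, map_one]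
  -- the non-commuting element
  obtain ⟨a, haA, hne⟩ := hnc
  have hnc' : ∃ a' ∈ up (A.map (rhoT T)), a' * z ≠ z * a' := by
    refine ⟨SemidirectProduct.inr (rhoT T a),
      Subgroup.mem_map_of_mem _ (Subgroup.mem_map_of_mem _ haA), ?_⟩
    intro h
    apply hne
    apply SemidirectProduct.inr_injective (φ := MonoidHom.id (MulAut ↥(VT T)))
    rw [map_mul, map_mul]
    rw [hzdef] at h
    exact h
  -- the subgroup `W'`
  obtain ⟨W', hW'def⟩ : ∃ W' : Subgroup (Gam ↥(VT T)),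
      W' = (W.subgroupOf (VT T)).map
        (SemidirectProduct.inl : ↥(VT T) →* Gam ↥(VT T)) := ⟨_, rfl⟩
  have hW' : Nat.card ↥W' ≤ 4 := by
    have e1 : Nat.card ↥W' = Nat.card ↥(W.subgroupOf (VT T)) := by
      rw [hW'def]
      exact Subgroup.card_map_of_injective SemidirectProduct.inl_injective
    have e2 : Nat.card ↥(W.subgroupOf (VT T)) ≤ Nat.card ↥W := by
      obtain ⟨f, hf⟩ : ∃ f : ↥(W.subgroupOf (VT T)) → ↥W,
          ∀ x, ((f x : ↥W) : X) = ((x : ↥(VT T)) : X) := ⟨fun x => ⟨_, x.2⟩, fun _ => rfl⟩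
      have hinj : Function.Injective f := by
        intro p q hpq
        have h1 : ((p : ↥(VT T)) : X) = ((q : ↥(VT T)) : X) := by
          rw [← hf p, ← hf q, hpq]
        exact Subtype.ext (Subtype.ext h1)
      exact Nat.card_le_card_of_injective f hinj
    omega
  -- conjugation by `z` on `Vs`
  have hconj : ∀ v : ↥(VT T), z * SemidirectProduct.inl v * z⁻¹ =
      SemidirectProduct.inl (rhoT T y v) := by
    intro v
    rw [hzdef, ← map_inv]
    exact (SemidirectProduct.inl_aut (φ := MonoidHom.id (MulAut ↥(VT T))) (rhoT T y) v).symm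
  have hcond : ∀ v' ∈ Vs ↥(VT T), v'⁻¹ * (z * v' * z⁻¹) ∈ W' := by
    rintro _ ⟨v, rfl⟩
    rw [hconj, ← map_inv, ← map_mul, hW'def]
    refine Subgroup.mem_map_of_mem _ ?_
    rw [Subgroup.mem_subgroupOf]
    have h8 := hWV v.1 v.2
    have h9 : ((v⁻¹ * rhoT T y v : ↥(VT T)) : X) = (v : X)⁻¹ * (y * (v : X) * y⁻¹) := by
      rw [Subgroup.coe_mul, Subgroup.coe_inv, offx_rho_val]
    rw [h9]
    exact h8
  haveI : Finite (Gam ↥(VT T)) := Finite.of_equiv _ SemidirectProduct.equivProd.symm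
  obtain ⟨b, hbA, hbz, hbcent⟩ := h1 (Gam ↥(VT T)) (Vs ↥(VT T)) (Hs 2 (rhoT T).range) hVsEA
    hHsNV hHsCV hffb hHsSup (up (A.map (rhoT T))) hle2 hbo z hzH hz3 hnc' W' hW' hcond
  obtain ⟨b', ⟨a₁, ha₁, rfl⟩, rfl⟩ := hbA
  refine ⟨a₁, ha₁, ?_, ?_⟩
  · apply SemidirectProduct.inr_injective (φ := MonoidHom.id (MulAut ↥(VT T)))
    rw [map_mul, map_mul, map_inv, map_inv]
    rw [hzdef] at hbz
    exact hbz
  · intro v hv hyv
    have hzv : z * SemidirectProduct.inl (⟨v, hv⟩ : ↥(VT T)) =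
        SemidirectProduct.inl (⟨v, hv⟩ : ↥(VT T)) * z := by
      rw [hzdef, offx_comm_iff]
      apply Subtype.ext
      rw [offx_rho_val]
      show y * v * y⁻¹ = v
      rw [hyv, mul_assoc, mul_inv_cancel, mul_one]
    have h10 := hbcent (SemidirectProduct.inl (⟨v, hv⟩ : ↥(VT T))) ⟨⟨v, hv⟩, rfl⟩ hzv
    have h11 := (offx_comm_iff (rhoT T a₁) (⟨v, hv⟩ : ↥(VT T))).mp h10
    have h12 : a₁ * v * a₁⁻¹ = v := by
      have h13 := congrArg Subtype.val h11
      rw [offx_rho_val] at h13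
      exact h13
    calc a₁ * v = a₁ * v * a₁⁻¹ * a₁ := by group
      _ = v * a₁ := by rw [h12]

end Cfsg.Agent.Lib.Helper2.JN
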