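import Mathlib
import Cfsg.Agent.Lib.Helper78.JQDefs
import Cfsg.Agent.Lib.Helper82.JcOCPC
import Cfsg.Agent.Lib.Helper88.JcK3
import Cfsg.Agent.Lib.Helper75.JcWF

/-!
# Project JQ (S2945, helper78), piece TRDC (helper2)

An element of `K` outside `O₂(K)` of order 3 acts fixed-point-freely on `W_K`.
-/

set_option autoImplicit false

namespace Cfsg.Agent.Lib.Helper2.JQ

open Cfsg.Agent.Lib.Helper78.JQ Cfsg.Agent.Lib.Helper78.Jc

universe u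

theorem trdc : TrdcStmt.{u} := by
  intro G _ _ T K H hJ hKH y hyK hyO hy3 w hw hfix
  obtain ⟨hodd, hKJ, h3, hS, hW4, hW2⟩ := hJ
  have hPK : Cfsg.pCoreOf 2 K ≤ K := Cfsg.Agent.Lib.Helper82.Jc.pc_le K
  have hKN : K ≤ Subgroup.normalizer (Cfsg.pCoreOf 2 K : Set G) :=
    Cfsg.Agent.Lib.Helper82.Jc.pc_le_normalizer K
  have hKΩ : K ≤ Subgroup.normalizer (Cfsg.omegaCenterOf (Cfsg.pCoreOf 2 K) : Set G) :=
    hKN.trans (Cfsg.Agent.Lib.Helper82.Jc.oc_normalizer (Cfsg.pCoreOf 2 K))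
  have hk : (y : G) ∈ K := Subgroup.mem_subgroupOf.mp hyK
  have hkP : (y : G) ∉ Cfsg.pCoreOf 2 K := fun h => hyO (Subgroup.mem_subgroupOf.mpr h)
  have hk3 : (y : G) ^ 3 = 1 := by
    have h := congrArg Subtype.val hy3
    simpa using h
  have hcases := Cfsg.Agent.Lib.Helper88.Jc.k3_cases K (Cfsg.pCoreOf 2 K) hPK hKN h3 (y : G)
    hk hkP
  have hΩab : ∀ a ∈ Cfsg.omegaCenterOf (Cfsg.pCoreOf 2 K),
      ∀ b ∈ Cfsg.omegaCenterOf (Cfsg.pCoreOf 2 K), a * b = b * a := fun a ha b hb =>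
    Cfsg.Agent.Lib.Helper82.Jc.oc_comm _ a ha b (Cfsg.Agent.Lib.Helper82.Jc.oc_le _ hb)
  have hPΩ : ∀ q ∈ Cfsg.pCoreOf 2 K, ∀ v ∈ Cfsg.omegaCenterOf (Cfsg.pCoreOf 2 K),
      q * v = v * q := fun q hq v hv =>
    (Cfsg.Agent.Lib.Helper82.Jc.oc_comm _ v hv q hq).symm
  have hfpf := Cfsg.Agent.Lib.Helper75.Jc.wf_fpf (Cfsg.omegaCenterOf (Cfsg.pCoreOf 2 K)) K
    (Cfsg.pCoreOf 2 K) (y : G) hΩab hPΩ hKΩ hcases hk hk3
  have hwW : (w : G) ∈ Cfsg.wOf K := Subgroup.mem_subgroupOf.mp hw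
  have h1 := hfpf (w : G) hwW
  have hfix' : (y : G) * (w : G) * (y : G)⁻¹ = (w : G) := by
    have h := congrArg Subtype.val hfix
    simpa using h
  have hfix'' : (y : G)⁻¹ * (w : G) * (y : G) = (w : G) := by
    calc (y : G)⁻¹ * (w : G) * (y : G)
        = (y : G)⁻¹ * ((y : G) * (w : G) * (y : G)⁻¹) * (y : G) := by rw [hfix']
      _ = (w : G) := by group
  rw [hfix', hfix''] at h1
  have hww : (w : G) * (w : G) = 1 := hW2 _ hwW
  rw [hww, one_mul] at h1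
  exact Subtype.ext h1

end Cfsg.Agent.Lib.Helper2.JQ
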