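import Mathlib
import Cfsg.Agent.Lib.Helper52.LPDefs

/-!
# Piece LP-1c of the Lang–Steinberg project for `PΩ±` (poster helper52):
the semilinear class criterion
-/

set_option autoImplicit false

namespace Cfsg.Agent.Lib.Helper2.LP1c

open Module QuadraticMap Matrix
open Cfsg Cfsg.Agent.Lib.Helper51 Cfsg.Agent.Lib.Helper52 Cfsg.Agent.Lib.Helper54
open Cfsg.Agent.Lib.Helper52.LP

variable {ι : Type} [Fintype ι] [DecidableEq ι] {F : Type*} [Field F]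

local notation "mt(" g ")" => ((g : Matrix.GeneralLinearGroup ι F) : Matrix ι ι F)

/-- the parity of `m - dim (σW ∩ aσW)` equals that of `m - dim (W ∩ aσW)` -/
theorem semi_key {m : ℕ} (Q : QuadraticForm F (ι → F))
    (hpar : ∀ U W X : Submodule F (ι → F), IsLag m Q U → IsLag m Q W → IsLag m Q X →
      Even ((m - finrank F ↥(U ⊓ W)) + (m - finrank F ↥(W ⊓ X)) + (m - finrank F ↥(U ⊓ X))))
    (σ : F ≃+* F) (hσ : SigInv σ Q)
    (U₀ : Submodule F (ι → F)) (hU₀ : IsLag m Q U₀) (hU₀σ : sigSub σ U₀ = U₀)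
    (a : GL ι F) (ha : a ∈ Cfsg.Geo.quadSimilarityGroup (F := F) ⇑Q)
    (W : Submodule F (ι → F)) (hW : IsLag m Q W) :
    (Even (m - finrank F ↥(sigSub σ W ⊓ imageSubmodule mt(a) (sigSub σ W))) ↔
      Even (m - finrank F ↥(W ⊓ imageSubmodule mt(a) (sigSub σ W)))) := by
  have hσW : IsLag m Q (sigSub σ W) := IsLag.sigSub hσ hW
  have haσW : IsLag m Q (imageSubmodule mt(a) (sigSub σ W)) := IsLag.image ha hσW
  have d1 : finrank F ↥(sigSub σ W ⊓ U₀) = finrank F ↥(W ⊓ U₀) := by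
    conv_lhs => rw [← hU₀σ]
    rw [← sigSub_inf, finrank_sigSub]
  have h1 := hpar W (sigSub σ W) U₀ hW hσW hU₀
  rw [d1] at h1
  have hA : Even (m - finrank F ↥(W ⊓ sigSub σ W)) := by
    obtain ⟨k, hk⟩ := h1
    exact ⟨k - (m - finrank F ↥(W ⊓ U₀)), by omega⟩
  have h2 := hpar W (sigSub σ W) (imageSubmodule mt(a) (sigSub σ W)) hW hσW haσW
  rw [Nat.even_add, Nat.even_add] at h2
  tauto

theorem semi_pres {m : ℕ} (Q : QuadraticForm F (ι → F))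
    (hpar : ∀ U W X : Submodule F (ι → F), IsLag m Q U → IsLag m Q W → IsLag m Q X →
      Even ((m - finrank F ↥(U ⊓ W)) + (m - finrank F ↥(W ⊓ X)) + (m - finrank F ↥(U ⊓ X))))
    (hpl : ∀ (g : GL ι F), g ∈ Cfsg.Geo.quadSimilarityGroup (F := F) ⇑Q →
      ∀ U : Submodule F (ι → F), IsLag m Q U →
      Even (m - finrank F ↥(U ⊓ imageSubmodule mt(g) U)) → PreservesSingularClasses ⇑Q mt(g))
    (σ : F ≃+* F) (hσ : SigInv σ Q)
    (U₀ : Submodule F (ι → F)) (hU₀ : IsLag m Q U₀) (hU₀σ : sigSub σ U₀ = U₀)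
    (a : GL ι F) (ha : a ∈ Cfsg.Geo.quadSimilarityGroup (F := F) ⇑Q)
    (W : Submodule F (ι → F)) (hW : IsLag m Q W)
    (h : Even (m - finrank F ↥(W ⊓ imageSubmodule mt(a) (sigSub σ W)))) :
    PreservesSingularClasses ⇑Q mt(a) :=
  hpl a ha (sigSub σ W) (IsLag.sigSub hσ hW)
    ((semi_key Q hpar σ hσ U₀ hU₀ hU₀σ a ha W hW).2 h)

theorem semi_not_pres {m : ℕ} (Q : QuadraticForm F (ι → F))
    (hpar : ∀ U W X : Submodule F (ι → F), IsLag m Q U → IsLag m Q W → IsLag m Q X →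
      Even ((m - finrank F ↥(U ⊓ W)) + (m - finrank F ↥(W ⊓ X)) + (m - finrank F ↥(U ⊓ X))))
    (hnpl : ∀ (g : GL ι F), ∀ U : Submodule F (ι → F), IsLag m Q U →
      ¬ Even (m - finrank F ↥(U ⊓ imageSubmodule mt(g) U)) →
      ¬ PreservesSingularClasses ⇑Q mt(g))
    (σ : F ≃+* F) (hσ : SigInv σ Q)
    (U₀ : Submodule F (ι → F)) (hU₀ : IsLag m Q U₀) (hU₀σ : sigSub σ U₀ = U₀)
    (a : GL ι F) (ha : a ∈ Cfsg.Geo.quadSimilarityGroup (F := F) ⇑Q)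
    (W : Submodule F (ι → F)) (hW : IsLag m Q W)
    (h : ¬ Even (m - finrank F ↥(W ⊓ imageSubmodule mt(a) (sigSub σ W)))) :
    ¬ PreservesSingularClasses ⇑Q mt(a) :=
  hnpl a (sigSub σ W) (IsLag.sigSub hσ hW)
    (fun h' => h ((semi_key Q hpar σ hσ U₀ hU₀ hU₀σ a ha W hW).1 h'))

end Cfsg.Agent.Lib.Helper2.LP1c
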