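import Mathlib
import Cfsg.Agent.Lib.Helper48.MulA

set_option autoImplicit false

/-! Piece GEN2 of S2086 (helper2 for helper48): an endomorphism of `SL₂(K)` fixing the elementary
matrices is the identity. -/

namespace Cfsg.Agent.Lib.Helper48.Mul

open Cfsg.Agent.Lib.Helper48 Cfsg.Agent.Lib.Helper48.St

variable {K : Type*} [Field K]

private theorem h2_transv_eq_spM (i j : Fin 2) (hij : i ≠ j) (c : K) :
    ∃ b, Matrix.SpecialLinearGroup.transvection hij c = spM b c := by
  fin_cases i <;> fin_cases j
  · exact absurd rfl hij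
  · refine ⟨true, ?_⟩
    apply Subtype.ext
    ext a b
    fin_cases a <;> fin_cases b <;>
      simp [Matrix.SpecialLinearGroup.transvection, Matrix.transvection, Matrix.single, spM, spXm]
  · refine ⟨false, ?_⟩
    apply Subtype.ext
    ext a b
    fin_cases a <;> fin_cases b <;>
      simp [Matrix.SpecialLinearGroup.transvection, Matrix.transvection, Matrix.single, spM, spYm]
  · exact absurd rfl hij

/-- piece GEN2 -/
theorem sl2_hom_eq_id
    (τ : Matrix.SpecialLinearGroup (Fin 2) K →* Matrix.SpecialLinearGroup (Fin 2) K)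
    (hτ : ∀ b t, τ (spM b t) = spM b t) : τ = MonoidHom.id _ := by
  have htop : (τ.eqLocus (MonoidHom.id _)) = ⊤ := by
    apply Cfsg.Agent.Lib.Helper47.eq_top_of_transvection_mem
    intro i j hij c
    show τ _ = _
    obtain ⟨b, hb⟩ := h2_transv_eq_spM i j hij c
    rw [hb]
    exact hτ b c
  ext1 g
  have hg : g ∈ τ.eqLocus (MonoidHom.id _) := by rw [htop]; trivial
  exact hg

end Cfsg.Agent.Lib.Helper48.Mul
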