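import Mathlib
import Cfsg.Agent.Lib.Helper48.MulA

set_option autoImplicit false
open scoped commutatorElement

/-! Piece Q2AB of S2086 (helper2 for helper48): lifts of elements of one root group of `SL₂(K)`
commute, given the triviality of symplectic pairings invariant under squares. -/

namespace Cfsg.Agent.Lib.Helper48.Mul

open Cfsg.Agent.Lib.Helper48 Cfsg.Agent.Lib.Helper48.St
open scoped IsMulCommutative

universe u

variable {K : Type*} [Field K]

/-- `diag(s, s⁻¹)` -/
private noncomputable def h2_dT (s : K) (hs : s ≠ 0) : Matrix.SpecialLinearGroup (Fin 2) K :=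
  ⟨!![s, 0; 0, s⁻¹], by simp [Matrix.det_fin_two_of, hs]⟩

/-- `diag(s⁻¹, s)` -/
private noncomputable def h2_dF (s : K) (hs : s ≠ 0) : Matrix.SpecialLinearGroup (Fin 2) K :=
  ⟨!![s⁻¹, 0; 0, s], by simp [Matrix.det_fin_two_of, hs]⟩

private theorem h2_dT_coe (s : K) (hs : s ≠ 0) :
    (h2_dT s hs : Matrix (Fin 2) (Fin 2) K) = !![s, 0; 0, s⁻¹] := rfl

private theorem h2_dF_coe (s : K) (hs : s ≠ 0) :
    (h2_dF s hs : Matrix (Fin 2) (Fin 2) K) = !![s⁻¹, 0; 0, s] := rfl

/-- the diagonal element normalizing the root group `spM b` -/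
private noncomputable def h2_diag (b : Bool) (s : K) (hs : s ≠ 0) :
    Matrix.SpecialLinearGroup (Fin 2) K :=
  match b with
  | true => h2_dT s hs
  | false => h2_dF s hs

private theorem h2_diag_conj (b : Bool) (s : K) (hs : s ≠ 0) (a : K) :
    h2_diag b s hs * spM b a = spM b (s ^ 2 * a) * h2_diag b s hs := by
  cases b
  · show h2_dF s hs * spM false a = spM false (s ^ 2 * a) * h2_dF s hs
    rw [spM_false, spM_false]
    apply sl2_ext
    all_goals simp [Matrix.SpecialLinearGroup.coe_mul, h2_dF_coe, spYm_coe, Matrix.mul_apply,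
      Fin.sum_univ_two]
    field_simp
  · show h2_dT s hs * spM true a = spM true (s ^ 2 * a) * h2_dT s hs
    rw [spM_true, spM_true]
    apply sl2_ext
    all_goals simp [Matrix.SpecialLinearGroup.coe_mul, h2_dT_coe, spXm_coe, Matrix.mul_apply,
      Fin.sum_univ_two]
    field_simp

/-- piece Q2AB -/
theorem sl2_CL {Γ : Type u} [Group Γ] [Fintype K]
    (hpair : ∀ (A : Type u) [CommGroup A] (c : K → K → A),
      (∀ a a' b, c (a + a') b = c a b * c a' b) → (∀ a b b', c a (b + b') = c a b * c a b') →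
      (∀ a, c a a = 1) → (∀ s a b, s ≠ 0 → c (s ^ 2 * a) (s ^ 2 * b) = c a b) → ∀ a b, c a b = 1)
    (σ : Γ →* Matrix.SpecialLinearGroup (Fin 2) K) (hs : Function.Surjective σ)
    (hc : σ.ker ≤ Subgroup.center Γ) : ∀ (b : Bool) (a a' : K), CL σ (spM b a) (spM b a') := by
  intro b
  have hcomm : ∀ a a' : K, Commute (spM b a : Matrix.SpecialLinearGroup (Fin 2) K) (spM b a') := by
    intro a a'
    show spM b a * spM b a' = spM b a' * spM b a
    rw [spM_rel.add, spM_rel.add, add_comm]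
  obtain ⟨L, hL⟩ : ∃ L : K → Γ, ∀ a, σ (L a) = spM b a :=
    ⟨fun a => Classical.choose (hs (spM b a)), fun a => Classical.choose_spec (hs (spM b a))⟩
  have hcomm' : ∀ a a' : K, Commute (σ (L a)) (σ (L a')) := by
    intro a a'
    rw [hL, hL]
    exact hcomm a a'
  have hmem : ∀ a a' : K, ⁅L a, L a'⁆ ∈ Subgroup.center Γ := fun a a' =>
    lift_comm_mem_center hc (hcomm' a a')
  have key := hpair (↥(Subgroup.center Γ)) (fun a a' => ⟨⁅L a, L a'⁆, hmem a a'⟩) ?_ ?_ ?_ ?_
  · intro a a'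
    apply CL_of_exists hc
    refine ⟨L a, L a', hL a, hL a', ?_⟩
    rw [← commutatorElement_eq_one_iff_commute]
    exact congrArg Subtype.val (key a a')
  · intro a a' b'
    apply Subtype.ext
    show ⁅L (a + a'), L b'⁆ = ⁅L a, L b'⁆ * ⁅L a', L b'⁆
    have h1 : ⁅L (a + a'), L b'⁆ = ⁅L a * L a', L b'⁆ := by
      apply lift_comm_eq hc _ rfl
      rw [map_mul, hL, hL, hL, spM_rel.add]
    rw [h1, comm_mul_left_of_central hc (hcomm' a' b')]
    exact Subgroup.mem_center_iff.mp (hmem a b') _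
  · intro a b' b''
    apply Subtype.ext
    show ⁅L a, L (b' + b'')⁆ = ⁅L a, L b'⁆ * ⁅L a, L b''⁆
    have h1 : ⁅L a, L (b' + b'')⁆ = ⁅L a, L b' * L b''⁆ := by
      apply lift_comm_eq hc rfl
      rw [map_mul, hL, hL, hL, spM_rel.add]
    rw [h1, comm_mul_right_of_central hc (hcomm' a b'')]
  · intro a
    apply Subtype.ext
    show ⁅L a, L a⁆ = 1
    exact commutatorElement_self _
  · intro s a a' hs0
    apply Subtype.ext
    show ⁅L (s ^ 2 * a), L (s ^ 2 * a')⁆ = ⁅L a, L a'⁆
    obtain ⟨T, hT⟩ := hs (h2_diag b s hs0)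
    have hconj : ∀ x : K, σ (L (s ^ 2 * x)) = σ (T * L x * T⁻¹) := by
      intro x
      rw [map_mul, map_mul, map_inv, hL, hL, hT, h2_diag_conj b s hs0 x, mul_inv_cancel_right]
    rw [lift_comm_eq hc (hconj a) (hconj a')]
    exact comm_conj_of_central hc (hcomm' a a') T

end Cfsg.Agent.Lib.Helper48.Mul
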