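import Mathlib
import Cfsg.Agent.Lib.Helper48.QADefs
import Cfsg.Prelude.Def_Transfer

/-!
# Project QA (helper48, S2787), piece RHO (helper2): from a normalised elementary abelian
subgroup to the ring `End(V)`.
-/

set_option autoImplicit false

universe u

namespace Cfsg.Agent.Lib.Helper48.QA

open Matrix Polynomial

open scoped commutatorElement in
/-- conjugation fixes a commutator which commutes with the conjugating element -/
theorem rho_fix_aux {G : Type u} [Group G] (V A : Subgroup G) (hquad : ⁅⁅V, A⁆, A⁆ = ⊥)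
    (a v : G) (ha : a ∈ A) (hv : v ∈ V) :
    a * (a * v * a⁻¹ * v⁻¹) * a⁻¹ = a * v * a⁻¹ * v⁻¹ := by
  have hc1 : ⁅v, a⁆ ∈ ⁅V, A⁆ := Subgroup.commutator_mem_commutator hv ha
  have hc2 : ⁅a, v⁆ ∈ ⁅V, A⁆ := by
    rw [← commutatorElement_inv]
    exact Subgroup.inv_mem _ hc1
  have hc3 : ⁅⁅a, v⁆, a⁆ ∈ ⁅⁅V, A⁆, A⁆ := Subgroup.commutator_mem_commutator hc2 ha
  rw [hquad, Subgroup.mem_bot, commutatorElement_eq_one_iff_commute] at hc3
  have hc4 : ⁅a, v⁆ * a = a * ⁅a, v⁆ := hc3
  rw [commutatorElement_def] at hc4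
  rw [← hc4, mul_inv_cancel_right]

/-- the commutative group structure on a commutative subgroup -/
@[reducible] def rho_commGroup {G : Type u} [Group G] (V : Subgroup G)
    (hc : IsMulCommutative V) : CommGroup ↥V :=
  { (inferInstance : Group ↥V) with mul_comm := fun a b => hc.is_comm.comm a b }

/-- QA-RHO -/
theorem exists_rho {G : Type u} [Group G] [Finite G] {p : ℕ} [Fact p.Prime] (V H : Subgroup G)
    (hV : Cfsg.IsElementaryAbelian p V) (hHV : H ≤ Subgroup.normalizer (V : Set G)) :
    ∃ (R : Type u) (_ : Ring R) (_ : Finite R) (ρ : ↥H →* Rˣ), ((p : ℕ) : R) = 0 ∧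
      ρ.ker = (Subgroup.centralizer (V : Set G)).subgroupOf H ∧
      ∀ (A : Subgroup G) (hA : A ≤ H), ⁅⁅V, A⁆, A⁆ = ⊥ → ∀ a : ↥A,
        (((ρ ⟨a.1, hA a.2⟩ : Rˣ) : R) - 1) * (((ρ ⟨a.1, hA a.2⟩ : Rˣ) : R) - 1) = 0 := by
  classical
  obtain ⟨hcomm, hexp⟩ := hV
  letI : CommGroup ↥V := rho_commGroup V hcomm
  have hconj : ∀ (h : ↥H) (v : ↥V), (h : G) * (v : G) * (h : G)⁻¹ ∈ V := fun h v =>
    (Subgroup.mem_normalizer_iff.mp (hHV h.2) (v : G)).mp v.2
  obtain ⟨f, hf⟩ : ∃ f : ↥H →* AddMonoid.End (Additive ↥V), ∀ (h : ↥H) (v : Additive ↥V),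
      ((Additive.toMul (f h v) : ↥V) : G) =
        (h : G) * ((Additive.toMul v : ↥V) : G) * (h : G)⁻¹ := by
    refine ⟨
      { toFun := fun h => MonoidHom.toAdditive (MonoidHom.mk'
          (fun v : ↥V => (⟨(h : G) * (v : G) * (h : G)⁻¹, hconj h v⟩ : ↥V))
          (fun a b => Subtype.ext (by
            show (h : G) * ((a : G) * (b : G)) * (h : G)⁻¹ =
              ((h : G) * (a : G) * (h : G)⁻¹) * ((h : G) * (b : G) * (h : G)⁻¹)
            group)))
        map_one' := by
          refine AddMonoidHom.ext (fun v => ?_)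
          apply Additive.toMul.injective
          apply Subtype.ext
          show ((1 : ↥H) : G) * ((Additive.toMul v : ↥V) : G) * ((1 : ↥H) : G)⁻¹ =
            ((Additive.toMul v : ↥V) : G)
          rw [Subgroup.coe_one, one_mul, inv_one, mul_one]
        map_mul' := by
          intro h h'
          refine AddMonoidHom.ext (fun v => ?_)
          apply Additive.toMul.injective
          apply Subtype.ext
          show ((h * h' : ↥H) : G) * ((Additive.toMul v : ↥V) : G) * ((h * h' : ↥H) : G)⁻¹ =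
            (h : G) * ((h' : G) * ((Additive.toMul v : ↥V) : G) * (h' : G)⁻¹) * (h : G)⁻¹
          rw [Subgroup.coe_mul]
          group }, fun h v => rfl⟩
  have hfin : Finite (AddMonoid.End (Additive ↥V)) :=
    Finite.of_injective (fun g : AddMonoid.End (Additive ↥V) =>
      (g : Additive ↥V → Additive ↥V)) DFunLike.coe_injective
  refine ⟨AddMonoid.End (Additive ↥V), inferInstance, hfin, f.toHomUnits, ?_, ?_, ?_⟩
  · refine AddMonoidHom.ext (fun v => ?_)
    show p • v = 0
    apply Additive.toMul.injective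
    apply Subtype.ext
    show ((Additive.toMul v : ↥V) : G) ^ p = 1
    exact hexp _ (Additive.toMul v).2
  · ext h
    rw [MonoidHom.mem_ker, Subgroup.mem_subgroupOf, Subgroup.mem_centralizer_iff]
    constructor
    · intro h1 v hv
      have h2 : f h = 1 := by
        have h0 := congrArg
          (fun u : (AddMonoid.End (Additive ↥V))ˣ => (u : AddMonoid.End (Additive ↥V))) h1
        simpa [MonoidHom.coe_toHomUnits] using h0
      have h3 := hf h (Additive.ofMul ⟨v, hv⟩)
      rw [h2] at h3
      have h4 : v = (h : G) * v * (h : G)⁻¹ := h3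
      calc v * (h : G) = ((h : G) * v * (h : G)⁻¹) * (h : G) := by rw [← h4]
        _ = (h : G) * v := by group
    · intro h1
      apply Units.ext
      rw [MonoidHom.coe_toHomUnits, Units.val_one]
      refine AddMonoidHom.ext (fun w => ?_)
      apply Additive.toMul.injective
      apply Subtype.ext
      refine (hf h w).trans ?_
      show (h : G) * ((Additive.toMul w : ↥V) : G) * (h : G)⁻¹ = ((Additive.toMul w : ↥V) : G)
      rw [← h1 _ (Additive.toMul w).2, mul_inv_cancel_right]
  · intro A hA hquad a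
    rw [MonoidHom.coe_toHomUnits]
    obtain ⟨a', ha'⟩ : ∃ a' : ↥H, a' = ⟨a.1, hA a.2⟩ := ⟨_, rfl⟩
    rw [← ha']
    have haG : ((a' : ↥H) : G) = (a.1 : G) := by rw [ha']
    have hfix : ∀ v : Additive ↥V, f a' (f a' v - v) = f a' v - v := by
      intro v
      apply Additive.toMul.injective
      apply Subtype.ext
      have hw : ((Additive.toMul (f a' v - v) : ↥V) : G) =
          (a.1 : G) * ((Additive.toMul v : ↥V) : G) * (a.1 : G)⁻¹ *
            (((Additive.toMul v : ↥V) : G))⁻¹ := by
        have h0 : ((Additive.toMul (f a' v - v) : ↥V) : G) =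
            ((Additive.toMul (f a' v) : ↥V) : G) * (((Additive.toMul v : ↥V) : G))⁻¹ := by
          rw [toMul_sub, Subgroup.coe_div, div_eq_mul_inv]
        have h1 := hf a' v
        rw [haG] at h1
        rw [h0]
        exact congrArg (fun z : G => z * (((Additive.toMul v : ↥V) : G))⁻¹) h1
      have h5 := hf a' (f a' v - v)
      rw [haG] at h5
      refine h5.trans ?_
      rw [hw]
      exact rho_fix_aux V A hquad a.1 _ a.2 (Additive.toMul v).2
    refine AddMonoidHom.ext (fun v => ?_)
    show (f a' - 1) ((f a' - 1) v) = 0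
    have e1 : (f a' - 1) v = f a' v - v := rfl
    rw [e1]
    have e2 : (f a' - 1) (f a' v - v) = f a' (f a' v - v) - (f a' v - v) := rfl
    rw [e2, hfix v, sub_self]

end Cfsg.Agent.Lib.Helper48.QA
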