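import Mathlib
import Cfsg.Agent.Lib.Helper23.Syl
import Cfsg.Agent.Lib.Helper23.Syl2
import Cfsg.Agent.Lib.Helper23.Count

/-!
# S0496, piece NS756B: the counting contradiction for order 756
-/

set_option autoImplicit false

namespace Cfsg.Agent.S496

open Subgroup Cfsg.Agent.Lib.Helper23

/-- a simple group of order `756` has `28` Sylow `3`-subgroups -/
theorem ns756b_card_sylow3 {G : Type*} [Group G] [Finite G] [IsSimpleGroup G]
    (h : Nat.card G = 756) : Nat.card (Sylow 3 G) = 28 := by
  haveI : Fact (Nat.Prime 3) := ⟨by norm_num⟩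
  have hG : ¬ IsMulCommutative G := not_comm_of_simple_of_not_prime (by rw [h]; norm_num)
  have h' : Nat.card G = 3 ^ 3 * 28 := by rw [h]; norm_num
  have hm : ¬ 3 ∣ 28 := by norm_num
  have h1 := card_sylow_mem_filter h' hm
  have h2 := simple_sylow_card_ne_one h' hm (by norm_num) (by norm_num)
  obtain ⟨P⟩ : Nonempty (Sylow 3 G) := inferInstance
  have hidx : (normalizer ((P : Subgroup G) : Set G)).index = Nat.card (Sylow 3 G) :=
    (Sylow.card_eq_index_normalizer P).symm
  have hne : normalizer ((P : Subgroup G) : Set G) ≠ ⊤ := by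
    intro ht
    rw [ht, index_top] at hidx
    exact h2 hidx.symm
  have h4 := simple_two_mul_card_dvd_factorial hG _ hne
  rw [hidx, h] at h4
  rw [Finset.mem_filter, Nat.mem_divisors] at h1
  obtain ⟨⟨hd, -⟩, hmod⟩ := h1
  obtain ⟨n, hn⟩ : ∃ n, n = Nat.card (Sylow 3 G) := ⟨_, rfl⟩
  rw [← hn] at hd hmod h4 h2 ⊢
  have hle : n ≤ 28 := Nat.le_of_dvd (by norm_num) hd
  interval_cases n <;> first | omega | (exfalso; revert h4; decide)

/-- a simple group of order `756` has `36` Sylow `7`-subgroups -/
theorem ns756b_card_sylow7 {G : Type*} [Group G] [Finite G] [IsSimpleGroup G]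
    (h : Nat.card G = 756) : Nat.card (Sylow 7 G) = 36 := by
  haveI : Fact (Nat.Prime 7) := ⟨by norm_num⟩
  have h' : Nat.card G = 7 ^ 1 * 108 := by rw [h]; norm_num
  have hm : ¬ 7 ∣ 108 := by norm_num
  have h1 := card_sylow_mem_filter h' hm
  have h2 := simple_sylow_card_ne_one h' hm (by norm_num) (by norm_num)
  rw [Finset.mem_filter, Nat.mem_divisors] at h1
  obtain ⟨⟨hd, -⟩, hmod⟩ := h1
  obtain ⟨n, hn⟩ : ∃ n, n = Nat.card (Sylow 7 G) := ⟨_, rfl⟩
  rw [← hn] at hd hmod h2 ⊢
  have hle : n ≤ 108 := Nat.le_of_dvd (by norm_num) hd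
  interval_cases n <;> omega

theorem count_756 {G : Type*} [Group G] [Finite G] [IsSimpleGroup G] (h : Nat.card G = 756)
    (hbad : ∀ (x : G), x ≠ 1 → ∀ P Q : Sylow 3 G, P ≠ Q → x ∈ (P : Subgroup G) →
      x ∈ (Q : Subgroup G) → {R : Sylow 3 G | x ∈ (R : Subgroup G)}.ncard = 4 ∧
        ∃ V : Subgroup G, Nat.card V = 4 ∧ ∀ v ∈ V, v * x = x * v) : False := by
  classical
  haveI : Fact (Nat.Prime 3) := ⟨by norm_num⟩
  haveI : Fact (Nat.Prime 7) := ⟨by norm_num⟩
  letI : Fintype G := Fintype.ofFinite G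
  letI : Fintype (Sylow 3 G) := Fintype.ofFinite _
  have hn3 := ns756b_card_sylow3 h
  have hn7 : Nat.card (Sylow 7 G) = 36 := ns756b_card_sylow7 h
  have hA : Nat.card {g : G // orderOf g = 7} = 216 := by
    rw [card_orderOf_eq_prime (p := 7) (m := 108) (by rw [h]) (by norm_num), hn7]
  have h27 : ∀ R : Sylow 3 G, Nat.card (R : Subgroup G) = 27 := fun R => by
    have := sylow_card_of_eq (p := 3) (k := 3) (m := 28) (by rw [h]; norm_num) (by norm_num) R
    rw [this]; norm_num
  -- the sets
  set Y : Finset G :=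
    Finset.univ.filter (fun x : G => x ≠ 1 ∧ ∃ R : Sylow 3 G, x ∈ (R : Subgroup G)) with hY
  set Fib : G → Finset G := fun x => Finset.univ.filter (fun g : G => g ^ 28 = x) with hFib
  set A : Finset G := Finset.univ.filter (fun g : G => orderOf g = 7) with hAdef
  set M : G → Finset (Sylow 3 G) :=
    fun x => Finset.univ.filter (fun R : Sylow 3 G => x ∈ (R : Subgroup G)) with hM
  -- double counting
  have hdc := Finset.sum_card_bipartiteAbove_eq_sum_card_bipartiteBelow
    (s := (Finset.univ : Finset (Sylow 3 G))) (t := Y)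
    (r := fun (R : Sylow 3 G) (x : G) => x ∈ (R : Subgroup G))
  have hL : ∀ R : Sylow 3 G,
      (Y.bipartiteAbove (fun (R : Sylow 3 G) x => x ∈ (R : Subgroup G)) R).card = 26 := by
    intro R
    have h1 : Y.bipartiteAbove (fun (R : Sylow 3 G) x => x ∈ (R : Subgroup G)) R =
        Finset.univ.filter (fun g : G => g ∈ (R : Subgroup G) ∧ g ≠ 1) := by
      ext g
      simp only [Finset.bipartiteAbove, hY, Finset.mem_filter, Finset.mem_univ, true_and]
      constructor
      · rintro ⟨⟨h1, -⟩, h2⟩; exact ⟨h2, h1⟩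
      · rintro ⟨h2, h1⟩; exact ⟨⟨h1, R, h2⟩, h2⟩
    rw [h1]
    have h2 := card_filter_mem_ne_one (R : Subgroup G)
    rw [h27 R] at h2
    convert h2 using 2
  have hsum : ∑ x ∈ Y, (M x).card = 728 := by
    have h1 : ∑ x ∈ Y, (M x).card = ∑ x ∈ Y, ((Finset.univ : Finset (Sylow 3 G)).bipartiteBelow
        (fun (R : Sylow 3 G) x => x ∈ (R : Subgroup G)) x).card := rfl
    rw [h1, ← hdc, Finset.sum_congr rfl (fun R _ => hL R), Finset.sum_const, Finset.card_univ,
      ← Nat.card_eq_fintype_card, hn3]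
    rfl
  have hkey : ∀ x ∈ Y, (M x).card ≤ (Fib x).card := by
    intro x hx
    rw [hY, Finset.mem_filter] at hx
    obtain ⟨-, hx1, R₀, hxR₀⟩ := hx
    have hx27 : x ^ 27 = 1 := by
      have := Subgroup.orderOf_dvd_natCard (R₀ : Subgroup G) hxR₀
      rw [h27 R₀] at this
      exact orderOf_dvd_iff_pow_eq_one.mp this
    have hx28 : x ^ 28 = x := by rw [pow_succ, hx27, one_mul]
    have hxFib : x ∈ Fib x := by simp [hFib, hx28]
    by_cases hc : (M x).card ≤ 1
    · exact hc.trans (Finset.card_pos.mpr ⟨x, hxFib⟩)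
    · push Not at hc
      obtain ⟨P, hP, Q, hQ, hPQ⟩ := Finset.one_lt_card.mp hc
      simp only [hM, Finset.mem_filter, Finset.mem_univ, true_and] at hP hQ
      obtain ⟨hm4, V, hV4, hVx⟩ := hbad x hx1 P Q hPQ hP hQ
      have hcard4 : (M x).card = 4 := by
        rw [← hm4, ← Set.ncard_coe_finset]
        congr 1
        ext R
        simp [hM]
      rw [hcard4]
      have hVc : (Finset.univ.filter (fun g : G => g ∈ V)).card = 4 := by
        rw [← hV4, Nat.card_eq_fintype_card, Fintype.card_subtype]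
      rw [← hVc]
      apply Finset.card_le_card_of_injOn (fun v => x * v)
      · intro v hv
        have hv' : v ∈ V := by simpa using hv
        have hv4 : v ^ 4 = 1 := by
          have := Subgroup.orderOf_dvd_natCard V hv'
          rw [hV4] at this
          exact orderOf_dvd_iff_pow_eq_one.mp this
        have hcomm : Commute x v := (hVx v hv').symm
        have : (x * v) ^ 28 = x := by
          rw [hcomm.mul_pow, hx28, show (28 : ℕ) = 4 * 7 from rfl, pow_mul, hv4, one_pow,
            mul_one]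
        simpa [hFib] using this
      · intro a _ b _ hab
        exact mul_left_cancel hab
  set U : Finset G := Y.biUnion Fib with hU
  have hUcard : U.card = ∑ x ∈ Y, (Fib x).card := by
    apply Finset.card_biUnion
    intro x _ y _ hxy
    rw [Function.onFun, Finset.disjoint_left]
    intro g hg1 hg2
    simp only [hFib, Finset.mem_filter, Finset.mem_univ, true_and] at hg1 hg2
    exact hxy (hg1.symm.trans hg2)
  have hU728 : 728 ≤ U.card := by
    rw [hUcard, ← hsum]
    exact Finset.sum_le_sum hkey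
  have hAcard : A.card = 216 := by
    rw [← hA, Nat.card_eq_fintype_card, Fintype.card_subtype]
  have hdisj : Disjoint U A := by
    rw [Finset.disjoint_left]
    intro g hgU hgA
    rw [hU, Finset.mem_biUnion] at hgU
    obtain ⟨x, hxY, hgx⟩ := hgU
    simp only [hFib, hY, hAdef, Finset.mem_filter, Finset.mem_univ, true_and] at hgx hxY hgA
    apply hxY.1
    have h7 : g ^ 7 = 1 := by rw [← hgA]; exact pow_orderOf_eq_one g
    rw [← hgx, show (28 : ℕ) = 7 * 4 from rfl, pow_mul, h7, one_pow]
  have h1UA : (1 : G) ∉ U ∪ A := by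
    rw [Finset.mem_union]
    rintro (h1 | h1)
    · rw [hU, Finset.mem_biUnion] at h1
      obtain ⟨x, hxY, hgx⟩ := h1
      simp only [hFib, hY, Finset.mem_filter, Finset.mem_univ, true_and, one_pow] at hgx hxY
      exact hxY.1 hgx.symm
    · simp only [hAdef, Finset.mem_filter, Finset.mem_univ, true_and, orderOf_one] at h1
      omega
  have hfin : (insert (1 : G) (U ∪ A)).card ≤ (Finset.univ : Finset G).card :=
    Finset.card_le_card (Finset.subset_univ _)
  rw [Finset.card_insert_of_notMem h1UA, Finset.card_union_of_disjoint hdisj, Finset.card_univ,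
    ← Nat.card_eq_fintype_card, h, hAcard] at hfin
  omega

end Cfsg.Agent.S496
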