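import Mathlib
import Cfsg.Prelude.Def_GeometricClasses
import Cfsg.Prelude.Def_LieClassical
import Cfsg.Agent.Lib.Helper75.OMPT5

/-!
# SPP piece TS5: transport of the subfield clause along `e : κ ≃ Fin n`
-/

set_option autoImplicit false

namespace Cfsg.Agent.Lib.Helper2.SPPTS5

open Matrix Cfsg.Geo
open scoped Kronecker

variable {n : ℕ} {F : Type*} [Field F] [Fintype F]
variable {κ : Type} [Fintype κ] [DecidableEq κ]

/-- the transported two-argument form on `Fin n → F` -/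
def tf (e : κ ≃ Fin n) (f : (κ → F) → (κ → F) → F) : (Fin n → F) → (Fin n → F) → F :=
  fun u v => f (u ∘ e) (v ∘ e)

/-- TS5 -/
theorem TS5 (e : κ ≃ Fin n) (f : (κ → F) → (κ → F) → F) (H : Subgroup (GL κ F))
    (F₀ : Subfield F) (ζ : F) (P' : GL (Fin n) F) :
    (H.map (glReindex e).toMonoidHom ≤ subfieldSubgroup F₀ P' →
      H ≤ subfieldSubgroup F₀ ((glReindex e).symm P')) ∧
    (IsFormRationalStructure (tf e f) F₀ ζ P' →
      IsFormRationalStructure f F₀ ζ ((glReindex e).symm P')) := by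
  refine ⟨(Cfsg.Agent.Lib.Helper75.OMPT5.T5 e (fun _ => 0) H F₀ P').1, ?_⟩
  intro hf u v hu hv
  have h1 := hf (u ∘ e.symm) (v ∘ e.symm) (fun i => hu _) (fun i => hv _)
  have h2 : ∀ w : κ → F, ((P' : Matrix (Fin n) (Fin n) F) *ᵥ (w ∘ e.symm)) ∘ e =
      (((glReindex e).symm P' : GL κ F) : Matrix κ κ F) *ᵥ w := by
    intro w
    rw [Cfsg.Agent.Lib.Helper75.OMPT5.glReindex_symm_val, Matrix.submatrix_mulVec_equiv]
  unfold tf at h1
  rw [h2, h2] at h1
  exact h1

end Cfsg.Agent.Lib.Helper2.SPPTS5
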