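import Mathlib
import Cfsg.Prelude.Def_GeometricClasses
import Cfsg.Prelude.Def_LieClassical
import Cfsg.Agent.Lib.Helper46.SUPU8c

/-!
# Project SUQ (helper50, S5841), piece U8E (helper2)

For the subfield of index 2 the rational structure of an absolutely irreducible subgroup of
`GU` is of symplectic type, or `q` is odd and the form itself is rational.  Adapted from
`Helper46/SUPU8c.lean`.
-/

set_option autoImplicit false

namespace Cfsg.Agent.Lib.Helper2.SUQU8E

open Matrix Cfsg.Geo Cfsg.Agent.Lib.Helper46.SUPU8c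

variable {n : ℕ} {F : Type*} [Field F] [Fintype F] {q : ℕ}

/-- the hermitian form on the columns of `C`, second argument fixed by `x ↦ x ^ q` -/
theorem U8E_form (hF : Fintype.card F = q ^ 2) (C : Matrix (Fin n) (Fin n) F)
    (u v : Fin n → F) (hv : ∀ i, v i ^ q = v i) :
    Cfsg.hermForm n F q (C *ᵥ u) (C *ᵥ v) =
      u ⬝ᵥ ((Cᵀ * C.map (U8c_sig hF)) *ᵥ v) := by
  have h1 : ∀ i, (C *ᵥ v) i ^ q = (C.map (U8c_sig hF) *ᵥ v) i := by
    intro i
    have hσv : (⇑(U8c_sig hF) ∘ v) = v := funext fun j => hv j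
    have h := RingHom.map_mulVec (U8c_sig hF) C v i
    rw [hσv] at h
    exact h
  calc Cfsg.hermForm n F q (C *ᵥ u) (C *ᵥ v)
      = (C *ᵥ u) ⬝ᵥ (C.map (U8c_sig hF) *ᵥ v) := by
        simp only [Cfsg.hermForm, dotProduct]
        exact Finset.sum_congr rfl (fun i _ => by rw [h1 i])
    _ = u ⬝ᵥ ((Cᵀ * C.map (U8c_sig hF)) *ᵥ v) := by
        rw [← Matrix.mulVec_mulVec, Matrix.dotProduct_mulVec u Cᵀ, Matrix.vecMul_transpose]

/-- U8E -/
theorem U8E (hF : Fintype.card F = q ^ 2) (hn : 2 ≤ n)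
    (L : Subgroup (GL (Fin n) F)) (hL : L ≤ Cfsg.GU n F q)
    (hLa : ActsAbsolutelyIrreducibly (matrixSet L)) (F₁ : Subfield F)
    (hcard : Fintype.card F = Nat.card F₁ ^ 2) (B : GL (Fin n) F)
    (hB : ∀ s ∈ matrixSet L, ∀ i j, (B.1 * s * (B⁻¹ : GL (Fin n) F).1) i j ∈ F₁)
    (ζ : F) (hζ : ζ ≠ 0)
    (hrat : IsFormRationalStructure (Cfsg.hermForm n F q) F₁ ζ B⁻¹) :
    (∃ ζ' : F, ζ' ≠ 0 ∧ ζ' + ζ' ^ q = 0 ∧
      IsFormRationalStructure (Cfsg.hermForm n F q) F₁ ζ' B⁻¹ ∧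
      ∀ u : Fin n → F, (∀ i, u i ∈ F₁) →
        Cfsg.hermForm n F q ((B⁻¹ : GL (Fin n) F).1 *ᵥ u) ((B⁻¹ : GL (Fin n) F).1 *ᵥ u) = 0) ∨
    (Odd q ∧ IsFormRationalStructure (Cfsg.hermForm n F q) F₁ 1 B⁻¹) := by
  classical
  have hq0 : q ≠ 0 := Cfsg.Agent.Lib.Helper7.herm_q_ne_zero hF
  have hcq : Nat.card F₁ = q := by
    have h : Nat.card F₁ ^ 2 = q ^ 2 := by rw [← hcard, hF]
    exact Nat.pow_left_injective (by norm_num : (2 : ℕ) ≠ 0) h
  have hfix : ∀ a ∈ F₁, a ^ q = a := by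
    intro a ha
    have h := Cfsg.Agent.Lib.Helper50.pow_card_of_mem F₁ ha
    rwa [hcq] at h
  have hfix' : ∀ a : F, a ^ q = a → a ∈ F₁ := by
    intro a ha
    apply Cfsg.Agent.Lib.Helper50.mem_of_pow_card_eq F₁ a
    rwa [hcq]
  obtain ⟨C, hC⟩ : ∃ C : Matrix (Fin n) (Fin n) F, C = (B⁻¹ : GL (Fin n) F).1 := ⟨_, rfl⟩
  obtain ⟨Γ, hΓ⟩ : ∃ Γ : Matrix (Fin n) (Fin n) F, Γ = Cᵀ * C.map (U8c_sig hF) := ⟨_, rfl⟩
  obtain ⟨Δ, hΔ⟩ : ∃ Δ : Matrix (Fin n) (Fin n) F, Δ = ζ • Γ := ⟨_, rfl⟩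
  have hmem_single : ∀ k : Fin n, ∀ l, (Pi.single k (1 : F) : Fin n → F) l ∈ F₁ := by
    intro k l
    by_cases h : l = k
    · subst h
      rw [Pi.single_eq_same]
      exact F₁.one_mem
    · rw [Pi.single_eq_of_ne h]
      exact F₁.zero_mem
  have hΓf : ∀ i j, Γ i j =
      Cfsg.hermForm n F q (C *ᵥ Pi.single i 1) (C *ᵥ Pi.single j 1) := by
    intro i j
    rw [hΓ]
    exact U8c_gram hF C i j
  have hΔmem : ∀ i j, Δ i j ∈ F₁ := by
    intro i j
    rw [hΔ, Matrix.smul_apply, smul_eq_mul, hΓf, hC]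
    exact hrat _ _ (hmem_single i) (hmem_single j)
  have hΓconj : ∀ i j, Γ j i = Γ i j ^ q := by
    intro i j
    rw [hΓf, hΓf]
    exact Cfsg.Agent.Lib.Helper7.hf_conj hF n _ _
  obtain ⟨ε, hε⟩ : ∃ ε : F, ε = ζ / ζ ^ q := ⟨_, rfl⟩
  have hζq : ζ ^ q ≠ 0 := pow_ne_zero q hζ
  have hΔsymm : ∀ i j, Δ j i = ε * Δ i j := by
    intro i j
    have h1 : Δ i j ^ q = Δ i j := hfix _ (hΔmem i j)
    have h2 : Δ i j = ζ * Γ i j := by rw [hΔ, Matrix.smul_apply, smul_eq_mul]
    have h3 : Δ j i = ζ * Γ i j ^ q := by rw [hΔ, Matrix.smul_apply, smul_eq_mul, hΓconj]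
    rw [h2, mul_pow] at h1
    rw [h3, h2, hε, ← h1]
    field_simp
  have hCdet : C.det ≠ 0 := by
    rw [hC]
    exact ((Matrix.isUnit_iff_isUnit_det _).mp (B⁻¹ : GL (Fin n) F).isUnit).ne_zero
  have hΓdet : Γ.det ≠ 0 := by
    rw [hΓ, Matrix.det_mul, Matrix.det_transpose]
    have h2 : (C.map (U8c_sig hF)).det = U8c_sig hF C.det := by
      rw [RingHom.map_det]
      rfl
    rw [h2]
    exact mul_ne_zero hCdet ((map_ne_zero (U8c_sig hF)).mpr hCdet)
  have hΔdet : Δ.det ≠ 0 := by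
    rw [hΔ, Matrix.det_smul]
    exact mul_ne_zero (pow_ne_zero _ hζ) hΓdet
  have hne : ∃ i j, Δ i j ≠ 0 := by
    by_contra hcon
    push Not at hcon
    apply hΔdet
    have h0 : Δ = 0 := by
      ext i j
      exact hcon i j
    rw [h0]
    haveI : Nonempty (Fin n) := ⟨⟨0, by omega⟩⟩
    exact Matrix.det_zero
  obtain ⟨i₀, j₀, hij⟩ := hne
  have hε2 : ε * ε = 1 := by
    have h1 := hΔsymm i₀ j₀
    have h2 := hΔsymm j₀ i₀
    rw [h1] at h2
    have h3 : (ε * ε - 1) * Δ i₀ j₀ = 0 := by linear_combination -h2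
    rcases mul_eq_zero.mp h3 with h | h
    · linear_combination h
    · exact absurd h hij
  by_cases hε1 : ε = 1
  · have hζfix : ζ ^ q = ζ := by
      have h : ζ / ζ ^ q = 1 := by
        rw [← hε]
        exact hε1
      exact ((div_eq_one_iff_eq hζq).mp h).symm
    have hζmem : ζ ∈ F₁ := hfix' ζ hζfix
    have hrat1 : IsFormRationalStructure (Cfsg.hermForm n F q) F₁ 1 B⁻¹ := by
      intro u v hu hv
      have h := hrat u v hu hv
      have e : (1 : F) * Cfsg.hermForm n F q ((B⁻¹ : GL (Fin n) F).1 *ᵥ u)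
          ((B⁻¹ : GL (Fin n) F).1 *ᵥ v) =
          ζ⁻¹ * (ζ * Cfsg.hermForm n F q ((B⁻¹ : GL (Fin n) F).1 *ᵥ u)
            ((B⁻¹ : GL (Fin n) F).1 *ᵥ v)) := by
        rw [one_mul, ← mul_assoc, inv_mul_cancel₀ hζ, one_mul]
      rw [e]
      exact F₁.mul_mem (F₁.inv_mem hζmem) h
    by_cases hodd_q : Odd q
    · right
      exact ⟨hodd_q, hrat1⟩
    · left
      have heven : Even q := Nat.not_odd_iff_even.mp hodd_q
      have hc : ringChar F = 2 := by
        rw [FiniteField.even_card_iff_char_two, hF]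
        exact Nat.even_iff.mp (Nat.even_pow.mpr ⟨heven, by norm_num⟩)
      have h2 : (2 : F) = 0 := by
        haveI : CharP F 2 := ringChar.of_eq hc
        exact CharTwo.two_eq_zero
      refine ⟨1, one_ne_zero, ?_, hrat1, ?_⟩
      · rw [one_pow]
        linear_combination h2
      ·
        have hsym : Δᵀ = Δ := by
          ext i j
          rw [Matrix.transpose_apply, hΔsymm i j, hε1, one_mul]
        have hbs : ∀ u v : Fin n → F, u ⬝ᵥ (Δ *ᵥ v) = v ⬝ᵥ (Δ *ᵥ u) :=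
          fun u v => U8c_symm Δ hsym u v
        have hQadd : ∀ u v : Fin n → F,
            (u + v) ⬝ᵥ (Δ *ᵥ (u + v)) = u ⬝ᵥ (Δ *ᵥ u) + v ⬝ᵥ (Δ *ᵥ v) := by
          intro u v
          rw [Matrix.mulVec_add, add_dotProduct, dotProduct_add, dotProduct_add, hbs v u]
          linear_combination (u ⬝ᵥ Δ *ᵥ v) * h2
        have hQsmul : ∀ (c : F) (u : Fin n → F),
            (c • u) ⬝ᵥ (Δ *ᵥ (c • u)) = c ^ 2 * (u ⬝ᵥ (Δ *ᵥ u)) := by
          intro c u
          rw [Matrix.mulVec_smul, smul_dotProduct, dotProduct_smul, smul_eq_mul, smul_eq_mul]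
          ring
        have hinv : ∀ x ∈ L, ∀ u : Fin n → F,
            ((B.1 * x.1 * C) *ᵥ u) ⬝ᵥ (Δ *ᵥ ((B.1 * x.1 * C) *ᵥ u)) = u ⬝ᵥ (Δ *ᵥ u) := by
          intro x hx u
          apply U8c_conj
          have hy : (B.1 * x.1 * C).map (U8c_sig hF) = B.1 * x.1 * C := by
            ext i j
            rw [Matrix.map_apply, U8c_sig_apply]
            apply hfix
            rw [hC]
            exact hB x.1 ⟨x, hx, rfl⟩ i j
          have h := U8c_inv hF B x (hL hx) C hC hy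
          rw [← hΓ] at h
          rw [hΔ, Matrix.mul_smul, Matrix.smul_mul, h]
        have hCB : C * B.1 = 1 := by
          rw [hC, ← Units.val_mul, inv_mul_cancel, Units.val_one]
        have hBC : B.1 * C = 1 := by
          rw [hC, ← Units.val_mul, mul_inv_cancel, Units.val_one]
        obtain ⟨W, hW⟩ : ∃ W : Submodule F (Fin n → F),
            ∀ w, w ∈ W ↔ (B.1 *ᵥ w) ⬝ᵥ (Δ *ᵥ (B.1 *ᵥ w)) = 0 :=
          ⟨{ carrier := {w | (B.1 *ᵥ w) ⬝ᵥ (Δ *ᵥ (B.1 *ᵥ w)) = 0}
             add_mem' := by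
              intro a b ha hb
              have ha' : (B.1 *ᵥ a) ⬝ᵥ (Δ *ᵥ (B.1 *ᵥ a)) = 0 := ha
              have hb' : (B.1 *ᵥ b) ⬝ᵥ (Δ *ᵥ (B.1 *ᵥ b)) = 0 := hb
              show (B.1 *ᵥ (a + b)) ⬝ᵥ (Δ *ᵥ (B.1 *ᵥ (a + b))) = 0
              rw [Matrix.mulVec_add, hQadd, ha', hb', add_zero]
             zero_mem' := by
              show (B.1 *ᵥ (0 : Fin n → F)) ⬝ᵥ (Δ *ᵥ (B.1 *ᵥ (0 : Fin n → F))) = 0
              rw [Matrix.mulVec_zero, zero_dotProduct]
             smul_mem' := by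
              intro c a ha
              have ha' : (B.1 *ᵥ a) ⬝ᵥ (Δ *ᵥ (B.1 *ᵥ a)) = 0 := ha
              show (B.1 *ᵥ (c • a)) ⬝ᵥ (Δ *ᵥ (B.1 *ᵥ (c • a))) = 0
              rw [Matrix.mulVec_smul, hQsmul, ha', mul_zero] }, fun w => Iff.rfl⟩
        have hWinv : ∀ s ∈ matrixSet L, W.map (Matrix.toLin' s) ≤ W := by
          rintro s ⟨x, hx, rfl⟩ _ ⟨w, hw, rfl⟩
          have hw' : (B.1 *ᵥ w) ⬝ᵥ (Δ *ᵥ (B.1 *ᵥ w)) = 0 := (hW w).mp hw
          rw [hW, Matrix.toLin'_apply]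
          have e : B.1 *ᵥ (x.1 *ᵥ w) = (B.1 * x.1 * C) *ᵥ (B.1 *ᵥ w) := by
            rw [Matrix.mulVec_mulVec, Matrix.mulVec_mulVec, Matrix.mul_assoc (B.1 * x.1), hCB,
              Matrix.mul_one]
          rw [e, hinv x hx, hw']
        have hQe : ∀ i : Fin n,
            (Pi.single i (1 : F) : Fin n → F) ⬝ᵥ (Δ *ᵥ Pi.single i 1) = Δ i i := by
          intro i
          rw [Matrix.mulVec_single_one, single_one_dotProduct]
          rfl
        rcases hLa.1 W hWinv with hbot | htop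
        · -- `W = ⊥`: a non-zero singular vector gives a contradiction
          exfalso
          obtain ⟨i0, i1, h01⟩ : ∃ i0 i1 : Fin n, i0 ≠ i1 :=
            ⟨⟨0, by omega⟩, ⟨1, by omega⟩, by simp [Fin.ext_iff]⟩
          have hv : ∃ v : Fin n → F, v ≠ 0 ∧ v ⬝ᵥ (Δ *ᵥ v) = 0 := by
            by_cases h00 : Δ i0 i0 = 0
            · refine ⟨Pi.single i0 1, ?_, ?_⟩
              · intro h
                have h' := congrFun h i0
                rw [Pi.single_eq_same] at h'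
                exact one_ne_zero h'
              · rw [hQe, h00]
            · obtain ⟨a, ha⟩ := FiniteField.isSquare_of_char_two hc (Δ i1 i1 / Δ i0 i0)
              refine ⟨a • Pi.single i0 1 + Pi.single i1 1, ?_, ?_⟩
              · intro h
                have h' := congrFun h i1
                simp [Pi.single_apply, h01, Ne.symm h01] at h'
              · rw [hQadd, hQsmul, hQe, hQe]
                have h3 : a ^ 2 * Δ i0 i0 = Δ i1 i1 := by
                  rw [pow_two, ← ha]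
                  field_simp
                rw [h3]
                linear_combination Δ i1 i1 * h2
          obtain ⟨v, hv0, hQv⟩ := hv
          have hBCv : B.1 *ᵥ (C *ᵥ v) = v := by
            rw [Matrix.mulVec_mulVec, hBC, Matrix.one_mulVec]
          have hw : C *ᵥ v ∈ W := by
            rw [hW, hBCv]
            exact hQv
          rw [hbot, Submodule.mem_bot] at hw
          apply hv0
          rw [← hBCv, hw, Matrix.mulVec_zero]
        · -- `W = ⊤`
          have hQ0 : ∀ v : Fin n → F, v ⬝ᵥ (Δ *ᵥ v) = 0 := by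
            intro v
            have hBCv : B.1 *ᵥ (C *ᵥ v) = v := by
              rw [Matrix.mulVec_mulVec, hBC, Matrix.one_mulVec]
            have hw : C *ᵥ v ∈ W := by
              rw [htop]
              trivial
            rw [hW, hBCv] at hw
            exact hw
          intro u hu
          have hu' : ∀ i, u i ^ q = u i := fun i => hfix _ (hu i)
          have e := U8E_form hF C u u hu'
          rw [← hΓ] at e
          have e2 : ζ * Cfsg.hermForm n F q (C *ᵥ u) (C *ᵥ u) = u ⬝ᵥ (Δ *ᵥ u) := by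
            rw [e, hΔ, Matrix.smul_mulVec, dotProduct_smul, smul_eq_mul]
          rw [hQ0 u] at e2
          rw [← hC]
          rcases mul_eq_zero.mp e2 with h | h
          · exact absurd h hζ
          · exact h
  · left
    have hεm : ε = -1 := by
      have h : (ε - 1) * (ε + 1) = 0 := by linear_combination hε2
      rcases mul_eq_zero.mp h with h | h
      · exact absurd (sub_eq_zero.mp h) hε1
      · linear_combination h
    have hζq' : ζ + ζ ^ q = 0 := by
      have h : ζ / ζ ^ q = -1 := by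
        rw [← hε]
        exact hεm
      rw [div_eq_iff hζq] at h
      linear_combination h
    have h2ne : (2 : F) ≠ 0 := by
      intro h2
      apply hε1
      rw [hεm]
      linear_combination (-1 : F) * h2
    refine ⟨ζ, hζ, hζq', hrat, ?_⟩
    intro u hu
    obtain ⟨t, ht⟩ : ∃ t : F, t = Cfsg.hermForm n F q ((B⁻¹ : GL (Fin n) F).1 *ᵥ u)
        ((B⁻¹ : GL (Fin n) F).1 *ᵥ u) := ⟨_, rfl⟩
    have htq : t = t ^ q := by
      rw [ht]
      exact Cfsg.Agent.Lib.Helper7.hf_conj hF n _ _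
    have hmem := hrat u u hu hu
    rw [← ht] at hmem ⊢
    have h1 := hfix _ hmem
    rw [mul_pow, ← htq] at h1
    have h3 : (2 : F) * ζ * t = 0 := by linear_combination t * hζq' - h1
    rcases mul_eq_zero.mp h3 with h | h
    · rcases mul_eq_zero.mp h with h | h
      · exact absurd h h2ne
      · exact absurd h hζ
    · exact h

end Cfsg.Agent.Lib.Helper2.SUQU8E
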