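import Mathlib
import Cfsg.Agent.Lib.Helper48.SVA

/-!
# S2425 (helper48's project SV), piece FFUN: bookkeeping for the product formula `ffun`
-/

set_option autoImplicit false

namespace Cfsg.Agent.Lib.Helper48.SV

open Cfsg
open scoped MatrixGroups Polynomial

/-- splitting off the factor at `g` in a product over the support of `g ::ₘ s` and of `s` -/
theorem ffun_aux {α : Type*} [DecidableEq α] (T : α → ℕ → ℂ) (hT0 : ∀ a, T a 0 = 1) (g : α)
    (s : Multiset α) :
    ∃ R : ℂ, ∏ f ∈ (g ::ₘ s).toFinset, T f ((g ::ₘ s).count f) = T g (s.count g + 1) * R ∧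
      ∏ f ∈ s.toFinset, T f (s.count f) = T g (s.count g) * R := by
  refine ⟨∏ f ∈ (insert g s.toFinset).erase g, T f (s.count f), ?_, ?_⟩
  · rw [Multiset.toFinset_cons, ← Finset.mul_prod_erase _ _ (Finset.mem_insert_self g s.toFinset),
      Multiset.count_cons_self]
    congr 1
    apply Finset.prod_congr rfl
    intro f hf
    rw [Multiset.count_cons_of_ne (Finset.ne_of_mem_erase hf)]
  · have h1 : ∏ f ∈ insert g s.toFinset, T f (s.count f) = ∏ f ∈ s.toFinset, T f (s.count f) := by
      apply Finset.prod_insert_of_eq_one_if_notMem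
      intro hg
      rw [Multiset.count_eq_zero_of_notMem (fun h => hg (Multiset.mem_toFinset.mpr h)), hT0]
    rw [← h1, ← Finset.mul_prod_erase _ _ (Finset.mem_insert_self g s.toFinset)]

theorem ffun_exp (d m : ℕ) : d * (m + 1) * (m + 1 - 1) / 2 = d * m + d * m * (m - 1) / 2 := by
  have h : d * (m + 1) * (m + 1 - 1) = d * m * (m - 1) + 2 * (d * m) := by
    cases m with
    | zero => simp
    | succ k =>
      simp only [Nat.add_sub_cancel]
      ring
  rw [h, Nat.add_mul_div_left _ _ (by norm_num : 0 < 2), add_comm]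

section Modules

variable {F : Type*} [Field F] [Finite F]
variable {N : Type*} [AddCommGroup N] [Module F[X] N] [Module F N] [IsScalarTower F F[X] N] [Finite N]

/-- piece FFUN (1) -/
theorem ffun_one [DecidableEq F] (q : ℕ) : ffun q (1 : F[X]) = 1 := by
  unfold ffun
  rw [UniqueFactorizationMonoid.normalizedFactors_one]
  simp

/-- piece FFUN (2) -/
theorem ffun_mul [DecidableEq F] (q : ℕ) (g χ : F[X]) (hg : Irreducible g) (hgm : g.Monic) (hχ : χ ≠ 0) :
    ffun q (g * χ) = (-1 : ℂ) ^ (g.natDegree - 1) *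
      (q : ℂ) ^ (g.natDegree * (UniqueFactorizationMonoid.normalizedFactors χ).count g) * ffun q χ := by
  have hnf : UniqueFactorizationMonoid.normalizedFactors (g * χ) =
      g ::ₘ UniqueFactorizationMonoid.normalizedFactors χ := by
    rw [UniqueFactorizationMonoid.normalizedFactors_mul hg.ne_zero hχ,
      UniqueFactorizationMonoid.normalizedFactors_irreducible hg, hgm.normalize_eq_self,
      Multiset.singleton_add]
  unfold ffun
  rw [hnf]
  obtain ⟨R, h1, h2⟩ := ffun_aux (fun (f : F[X]) (c : ℕ) => (-1 : ℂ) ^ ((f.natDegree - 1) * c) *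
      (q : ℂ) ^ (f.natDegree * c * (c - 1) / 2)) (fun a => by simp) g
      (UniqueFactorizationMonoid.normalizedFactors χ)
  beta_reduce at h1 h2
  rw [h1, h2, ffun_exp, pow_add, mul_add, mul_one, pow_add]
  ring

end Modules

end Cfsg.Agent.Lib.Helper48.SV
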