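import Cfsg.Agent.Lib.Helper98.T73Defs
import Cfsg.Prelude.Def_GeometricClasses
import Cfsg.Agent.Lib.Helper76.O72R2A
import Cfsg.Agent.Lib.Helper17.O72BRA
import Cfsg.Agent.Lib.Helper52.GeoOmega
import Cfsg.Agent.Lib.Helper52.OmegaPlus
import Cfsg.Agent.Lib.Helper51.HypPairs

/-!
# Project T73 (S5973, helper98), piece INVA (helper2)

An involution of `Ω⁺_{2d}(q)`, `q` odd, fixes a totally singular `m`-space for `m + 2 ≤ d`.
-/

set_option autoImplicit false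

namespace Cfsg.Agent.Lib.Helper98.T73

open Cfsg.Agent.Lib.Helper47 Module Polynomial

universe u

variable {F : Type u} [Field F] [Fintype F]

/-- INVA -/
theorem invol_fix_a (h2 : (2 : F) ≠ 0) (d m : ℕ) (hm : m + 2 ≤ d) (x : GL (Fin d ⊕ Fin d) F)
    (hx : x ∈ Cfsg.Geo.omegaGL (Cfsg.quadFormPlus d F)) (hx2 : x * x = 1) :
    ∃ W : Submodule F (Fin d ⊕ Fin d → F), finrank F W = m ∧
      (∀ w ∈ W, Cfsg.quadFormPlus d F w = 0) ∧
      W.map (Matrix.toLin' (x : Matrix (Fin d ⊕ Fin d) (Fin d ⊕ Fin d) F)) ≤ W := by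
  classical
  have hQc : ⇑(Cfsg.Agent.Lib.Helper51.QPlus d F) = Cfsg.quadFormPlus d F :=
    Cfsg.Agent.Lib.Helper51.coe_QPlus d F
  have hS : LinearMap.BilinForm.IsSymm
      (QuadraticMap.polarBilin (Cfsg.Agent.Lib.Helper51.QPlus d F)) :=
    ⟨fun x y => QuadraticMap.polar_comm _ x y⟩
  have hQnd := Cfsg.Agent.Lib.Helper52.QPlus_nondegenerate (m := d) (F := F)
  have hN := Cfsg.Agent.Lib.Helper98.O72.br_nd (Cfsg.Agent.Lib.Helper51.QPlus d F) hQnd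
  have hx' : x ∈ Cfsg.Geo.omegaGL ⇑(Cfsg.Agent.Lib.Helper51.QPlus d F) := by
    rw [hQc]
    exact hx
  obtain ⟨g, hgc, rfl⟩ :=
    Cfsg.Agent.Lib.Helper52.exists_of_mem_omegaGL (Cfsg.Agent.Lib.Helper51.QPlus d F) hx'
  have hT := Cfsg.Agent.Lib.Helper98.O72.br_isom_of_mem (Cfsg.Agent.Lib.Helper51.QPlus d F) g
  obtain ⟨M, hM⟩ : ∃ M : Matrix (Fin d ⊕ Fin d) (Fin d ⊕ Fin d) F,
      M = ((g : GL (Fin d ⊕ Fin d) F) : Matrix (Fin d ⊕ Fin d) (Fin d ⊕ Fin d) F) := ⟨_, rfl⟩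
  rw [← hM] at hT ⊢
  have hMM : M * M = 1 := by
    rw [hM, ← Units.val_mul, hx2, Units.val_one]
  have hT2 : Matrix.toLin' M * Matrix.toLin' M = 1 := by
    have h1 : Matrix.toLin' (M * M) = Matrix.toLin' M * Matrix.toLin' M := by
      rw [Matrix.toLin'_mul]
      rfl
    rw [← h1, hMM, Matrix.toLin'_one]
    rfl
  have hV : finrank F (Fin d ⊕ Fin d → F) = 2 * d := by
    rw [Module.finrank_fintype_fun_eq_card, Fintype.card_sum, Fintype.card_fin]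
    omega
  obtain ⟨hNp, hNm, horth, hfr⟩ :=
    Cfsg.Agent.Lib.Helper98.O72.invol_decomp hS h2 hN (Matrix.toLin' M) hT hT2
  rw [hV] at hfr
  obtain ⟨U₁, hU₁, ht₁, hw₁⟩ := Cfsg.Agent.Lib.Helper98.O72.r2a_ti_sub hS h2 hN _ hNp
    (min m ((finrank F (LinearMap.ker (Matrix.toLin' M - 1)) - 1) / 2)) (min_le_right _ _)
  obtain ⟨U₂, hU₂, ht₂, hw₂⟩ := Cfsg.Agent.Lib.Helper98.O72.r2a_ti_sub hS h2 hN _ hNm
    (m - min m ((finrank F (LinearMap.ker (Matrix.toLin' M - 1)) - 1) / 2)) (by omega)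
  obtain ⟨g1, g2, g3⟩ := Cfsg.Agent.Lib.Helper98.O72.exists_ti_inv_of_eigen hS h2 hN
    (Matrix.toLin' M) hT hT2 U₁ U₂ hU₁ hU₂ ht₁ ht₂
  refine ⟨U₁ ⊔ U₂, ?_, ?_, g1⟩
  · rw [g3, hw₁, hw₂]
    omega
  · intro w hw
    rw [← hQc]
    exact (Cfsg.Agent.Lib.Helper98.O72.br_ts_iff (Cfsg.Agent.Lib.Helper51.QPlus d F) h2 _).mpr
      g2 w hw

end Cfsg.Agent.Lib.Helper98.T73
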