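import Mathlib
import Cfsg.Prelude.Def_GeometricClasses
import Cfsg.Agent.Lib.Helper98.TDBase

/-! S5979 piece TD-DIAG (for helper98): a matrix with `A ^ r = α • 1` over an algebraically closed
field (`r ≠ 0` in the field, `α ≠ 0`) is diagonalisable. -/

set_option autoImplicit false

namespace Cfsg.Agent.Lib.Helper98.TD

open Matrix Polynomial
open scoped Kronecker

universe u

theorem exists_diag {L : Type*} [Field L] [IsAlgClosed L] {m : ℕ} (A : Matrix (Fin m) (Fin m) L)
    (r : ℕ) (hr : (r : L) ≠ 0) (α : L) (hα : α ≠ 0)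
    (hA : A ^ r = α • (1 : Matrix (Fin m) (Fin m) L)) :
    ∃ (P : Matrix (Fin m) (Fin m) L) (d : Fin m → L), IsUnit P.det ∧ A * P = P * Matrix.diagonal d := by
  classical
  have hsep : (X ^ r - C α : L[X]).Separable := separable_X_pow_sub_C α hr hα
  have hss : Module.End.IsSemisimple (Matrix.toLin' A) := by
    apply Module.End.isSemisimple_of_squarefree_aeval_eq_zero hsep.squarefree
    rw [map_sub, map_pow, aeval_X, aeval_C, ← Matrix.toLin'_pow, hA, map_smul, Matrix.toLin'_one,
      Algebra.algebraMap_eq_smul_one]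
    exact sub_self _
  have htop := hss.iSup_eigenspace_eq_top
  have hspan : Submodule.span L {v : Fin m → L | ∃ μ : L, Matrix.toLin' A v = μ • v} = ⊤ := by
    rw [eq_top_iff, ← htop]
    apply iSup_le
    intro μ v hv
    apply Submodule.subset_span
    exact ⟨μ, Module.End.mem_eigenspace_iff.mp hv⟩
  obtain ⟨b, hbS, hbspan, hbli⟩ :=
    exists_linearIndependent L {v : Fin m → L | ∃ μ : L, Matrix.toLin' A v = μ • v}
  have hsp : ⊤ ≤ Submodule.span L (Set.range ((↑) : b → (Fin m → L))) := by
    rw [Subtype.range_coe, hbspan, hspan]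
  have hev : ∀ j : Fin m, ∃ μ : L,
      Matrix.toLin' A ((((Pi.basisFun L (Fin m)).indexEquiv (Module.Basis.mk hbli hsp) j : b) :
        Fin m → L)) =
      μ • ((((Pi.basisFun L (Fin m)).indexEquiv (Module.Basis.mk hbli hsp) j : b) : Fin m → L)) :=
    fun j => hbS ((Pi.basisFun L (Fin m)).indexEquiv (Module.Basis.mk hbli hsp) j).2
  choose d hd using hev
  refine ⟨Matrix.of (fun i j =>
    (((Pi.basisFun L (Fin m)).indexEquiv (Module.Basis.mk hbli hsp) j : b) : Fin m → L) i), d, ?_, ?_⟩
  · have h1 : Matrix.of (fun i j =>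
        (((Pi.basisFun L (Fin m)).indexEquiv (Module.Basis.mk hbli hsp) j : b) : Fin m → L) i) =
        (Pi.basisFun L (Fin m)).toMatrix ((Module.Basis.mk hbli hsp).reindex
          ((Pi.basisFun L (Fin m)).indexEquiv (Module.Basis.mk hbli hsp)).symm) := by
      ext i j
      simp [Module.Basis.toMatrix_apply]
    rw [h1]
    have h2 := Module.Basis.toMatrix_mul_toMatrix_flip (Pi.basisFun L (Fin m))
      ((Module.Basis.mk hbli hsp).reindex
          ((Pi.basisFun L (Fin m)).indexEquiv (Module.Basis.mk hbli hsp)).symm)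
    exact Matrix.isUnit_det_of_right_inverse h2
  · ext i j
    rw [Matrix.mul_diagonal]
    have h1 := congrFun (hd j) i
    rw [Matrix.toLin'_apply] at h1
    simp only [Matrix.mulVec, dotProduct, Pi.smul_apply, smul_eq_mul] at h1
    simp only [Matrix.mul_apply, Matrix.of_apply]
    rw [h1, mul_comm]

end Cfsg.Agent.Lib.Helper98.TD
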