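import Mathlib
import Cfsg.Agent.Lib.Helper17.W2pB

set_option autoImplicit false

/-! Piece THETA of the TG project (helper2 for helper22, S4442): convolution / orthogonality
identities for a sum of distinct irreducible characters of the same degree. -/

namespace Cfsg.Agent.Lib.Helper2.TG

open Cfsg

private theorem h2_pair {K : Type*} [Group K] [Fintype K] (f₁ f₂ : K → ℂ)
    (h₁ : IsIrrCharacter K f₁) (h₂ : IsIrrCharacter K f₂) (g : K) :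
    ∑ y : K, f₁ y⁻¹ * f₂ (g * y) =
      if f₁ = f₂ then (Nat.card K : ℂ) / f₁ 1 * f₁ g else 0 := by
  have h := Cfsg.Agent.Lib.Helper17.gen_orth (⟨f₁, h₁⟩ : IrrCharacter K) ⟨f₂, h₂⟩ g
  have hcl := Cfsg.Agent.Lib.Helper4.isClassFunction_irr (⟨f₂, h₂⟩ : IrrCharacter K)
  have e : ∑ y : K, f₁ y⁻¹ * f₂ (g * y) = ∑ y : K, f₁ y * f₂ (y⁻¹ * g) := by
    rw [← Equiv.sum_comp (Equiv.inv K)]
    refine Finset.sum_congr rfl fun y _ => ?_
    simp only [Equiv.inv_apply, inv_inv]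
    congr 1
    have := hcl (y⁻¹ * g) y
    simp only [] at this
    rw [← this]
    congr 1
    group
  rw [e]
  simp only [Subtype.mk.injEq] at h
  exact h

theorem orbit_conv {K : Type*} [Group K] [Fintype K] (O : Finset (K → ℂ))
    (hO : ∀ f ∈ O, IsIrrCharacter K f) (n : ℕ) (hn : ∀ f ∈ O, f 1 = (n : ℂ)) :
    (∀ g : K, (n : ℂ) * ∑ y : K, (∑ f ∈ O, f y⁻¹) * (∑ f ∈ O, f (g⁻¹ * y)) =
      (Nat.card K : ℂ) * ∑ f ∈ O, f g⁻¹) ∧
    (∀ f' ∈ O, (n : ℂ) * ∑ y : K, f' y * (∑ f ∈ O, f y⁻¹) = (Nat.card K : ℂ) * f' 1) := by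
  classical
  have hn0 : ∀ f ∈ O, (n : ℂ) ≠ 0 := by
    intro f hf
    rw [← hn f hf]
    exact Cfsg.Agent.Lib.Helper4.irr_one_ne_zero (⟨f, hO f hf⟩ : IrrCharacter K)
  constructor
  · intro g
    have key : ∑ y : K, (∑ f ∈ O, f y⁻¹) * (∑ f ∈ O, f (g⁻¹ * y)) =
        ∑ f₁ ∈ O, ∑ f₂ ∈ O, ∑ y : K, f₁ y⁻¹ * f₂ (g⁻¹ * y) := by
      simp_rw [Finset.sum_mul_sum]
      rw [Finset.sum_comm]
      refine Finset.sum_congr rfl fun f₁ _ => ?_
      rw [Finset.sum_comm]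
    rw [key, Finset.mul_sum, Finset.mul_sum]
    refine Finset.sum_congr rfl fun f₁ hf₁ => ?_
    have h2 : ∑ f₂ ∈ O, ∑ y : K, f₁ y⁻¹ * f₂ (g⁻¹ * y) =
        ∑ f₂ ∈ O, if f₁ = f₂ then (Nat.card K : ℂ) / f₁ 1 * f₁ g⁻¹ else 0 :=
      Finset.sum_congr rfl fun f₂ hf₂ => h2_pair f₁ f₂ (hO f₁ hf₁) (hO f₂ hf₂) g⁻¹
    rw [h2, Finset.sum_ite_eq O f₁, if_pos hf₁, hn f₁ hf₁]
    have := hn0 f₁ hf₁
    field_simp
  · intro f' hf'
    have key : ∑ y : K, f' y * (∑ f ∈ O, f y⁻¹) = ∑ f ∈ O, ∑ y : K, f y⁻¹ * f' (1 * y) := by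
      simp_rw [Finset.mul_sum]
      rw [Finset.sum_comm]
      refine Finset.sum_congr rfl fun f _ => Finset.sum_congr rfl fun y _ => ?_
      rw [one_mul, mul_comm]
    have h2 : ∑ f ∈ O, ∑ y : K, f y⁻¹ * f' (1 * y) =
        ∑ f ∈ O, if f = f' then (Nat.card K : ℂ) / f 1 * f 1 else 0 :=
      Finset.sum_congr rfl fun f hf => h2_pair f f' (hO f hf) (hO f' hf') 1
    rw [key, h2, Finset.sum_ite_eq' O f', if_pos hf', hn f' hf']
    have := hn0 f' hf'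
    field_simp
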