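import Cfsg.Agent.Lib.Helper2.Tate

set_option autoImplicit false

namespace Cfsg.Agent.Lib.Helper2

open scoped commutatorElement

section Tate2

variable {G : Type*} [Group G]

theorem pResidual_le_subgroupOf (p : ℕ) (H : Subgroup G) :
    Cfsg.pResidual p H ≤ (Cfsg.pResidual p G).subgroupOf H := by
  unfold Cfsg.pResidual
  rw [Subgroup.closure_le]
  intro g hg
  show (g : G) ∈ Subgroup.closure _
  apply Subgroup.subset_closure
  show Nat.Coprime (orderOf (g : G)) p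
  rw [Subgroup.orderOf_coe]
  exact hg

/-- **Tate's theorem**, general form: if `P ≤ H ≤ G` with `P` a Sylow `p`-subgroup of `G` and
`P ∩ G' ≤ H'`, then `H ∩ O^p(G) ≤ O^p(H)`. -/
theorem tate_general [Finite G] {p : ℕ} [Fact p.Prime] (P : Sylow p G) (H : Subgroup G)
    (hPH : (P : Subgroup G) ≤ H) (hyp : (P : Subgroup G) ⊓ commutator G ≤ ⁅H, H⁆) :
    (Cfsg.pResidual p G).subgroupOf H ≤ Cfsg.pResidual p H := by
  haveI hKn : (Cfsg.pResidual p G).Normal := pResidual_normal p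
  haveI hLn : (Cfsg.pResidual p H).Normal := pResidual_normal p
  let M' : Subgroup H := (Cfsg.pResidual p G).subgroupOf H
  haveI : M'.Normal := Subgroup.normal_subgroupOf
  let L' : Subgroup H := Cfsg.pResidual p H
  haveI : L'.Normal := hLn
  have hLM : L' ≤ M' := pResidual_le_subgroupOf p H
  haveI : (⁅M', (⊤ : Subgroup H)⁆).Normal := Subgroup.commutator_normal M' ⊤
  let M₁ : Subgroup H := ⁅M', (⊤ : Subgroup H)⁆ ⊔ L'
  haveI : M₁.Normal := Subgroup.sup_normal _ _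
  have hM₁ : M₁ ≤ M' := sup_le (Subgroup.commutator_le_left M' ⊤) hLM
  have hcen : ⁅M', (⊤ : Subgroup H)⁆ ≤ M₁ := le_sup_left
  have hLM₁ : L' ≤ M₁ := le_sup_right
  have hpq : IsPGroup p (H ⧸ M₁) := by
    intro q
    obtain ⟨h, rfl⟩ := QuotientGroup.mk_surjective q
    obtain ⟨k, hk⟩ := pow_mem_pResidual p h
    exact ⟨k, by rw [← QuotientGroup.mk_pow]; exact (QuotientGroup.eq_one_iff _).mpr (hLM₁ hk)⟩
  have hidx : H.index.Coprime p := by
    have h1 : H.index ∣ (P : Subgroup G).index := Subgroup.index_dvd_of_le hPH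
    have h2 : (P : Subgroup G).index.Coprime p := by
      rw [Nat.coprime_comm, Nat.Prime.coprime_iff_not_dvd Fact.out]; exact P.not_dvd_index
    exact Nat.Coprime.coprime_dvd_left h1 h2
  obtain ⟨φ, hφK, hφ⟩ := tate_core H hidx M₁ hM₁ hcen hpq
  have hcentral : ∀ m : H, m ∈ M' → ∀ f : H ⧸ M₁, (m : H ⧸ M₁) * f = f * (m : H ⧸ M₁) := by
    intro m hm f
    obtain ⟨y, rfl⟩ := QuotientGroup.mk_surjective f
    rw [← QuotientGroup.mk_mul, ← QuotientGroup.mk_mul]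
    apply QuotientGroup.eq.2
    apply hcen
    have : (m * y)⁻¹ * (y * m) = ⁅y⁻¹, m⁻¹⁆ := by rw [commutatorElement_def]; group
    rw [this, Subgroup.commutator_comm]
    exact Subgroup.commutator_mem_commutator (Subgroup.mem_top _) (Subgroup.inv_mem _ hm)
  have hδdesc : ∀ h : H, ∃ m : H, m ∈ M' ∧ (h : H ⧸ M₁) * (φ (h : G))⁻¹ = (m : H ⧸ M₁) := by
    intro h
    obtain ⟨h', hh', hh'K⟩ := hφ (h : G)
    refine ⟨h * h'⁻¹, ?_, ?_⟩
    · show ((h * h'⁻¹ : H) : G) ∈ Cfsg.pResidual p G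
      have h1 := hKn.conj_mem _ (Subgroup.inv_mem _ hh'K) (h : G)
      have h2 : (h : G) * ((h : G)⁻¹ * (h' : G))⁻¹ * (h : G)⁻¹ = ((h * h'⁻¹ : H) : G) := by
        simp only [Subgroup.coe_mul, Subgroup.coe_inv]; group
      rw [← h2]
      exact h1
    · rw [hh', ← QuotientGroup.mk_inv, ← QuotientGroup.mk_mul]
  let δ : H →* H ⧸ M₁ := MonoidHom.mk' (fun h => (h : H ⧸ M₁) * (φ (h : G))⁻¹) (by
    intro a b
    obtain ⟨m, hm, hmb⟩ := hδdesc b
    show ((a * b : H) : H ⧸ M₁) * (φ ((a * b : H) : G))⁻¹ =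
      (a : H ⧸ M₁) * (φ (a : G))⁻¹ * ((b : H ⧸ M₁) * (φ (b : G))⁻¹)
    rw [hmb, Subgroup.coe_mul, map_mul, mul_inv_rev, QuotientGroup.mk_mul]
    calc (a : H ⧸ M₁) * (b : H ⧸ M₁) * ((φ (b : G))⁻¹ * (φ (a : G))⁻¹)
        = (a : H ⧸ M₁) * ((b : H ⧸ M₁) * (φ (b : G))⁻¹) * (φ (a : G))⁻¹ := by group
      _ = (a : H ⧸ M₁) * ((m : H ⧸ M₁) * (φ (a : G))⁻¹) := by rw [hmb, mul_assoc]
      _ = (a : H ⧸ M₁) * ((φ (a : G))⁻¹ * (m : H ⧸ M₁)) := by rw [hcentral m hm]
      _ = _ := by rw [mul_assoc])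
  have hδ : ∀ h : H, δ h = (h : H ⧸ M₁) * (φ (h : G))⁻¹ := fun h => rfl
  have hδM : ∀ m : H, m ∈ M' → δ m = (m : H ⧸ M₁) := by
    intro m hm
    have hm' : (m : G) ∈ Cfsg.pResidual p G := hm
    rw [hδ, hφK _ hm', inv_one, mul_one]
  have hδcomm : commutator H ≤ δ.ker := by
    rw [commutator_eq_closure, Subgroup.closure_le]
    rintro _ ⟨a, b, rfl⟩
    rw [SetLike.mem_coe, MonoidHom.mem_ker, map_commutatorElement, commutatorElement_def]
    obtain ⟨m, hm, hma⟩ := hδdesc a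
    rw [hδ a, hma, hcentral m hm]
    group
  have hδL : L' ≤ δ.ker := by
    show Cfsg.pResidual p H ≤ δ.ker
    unfold Cfsg.pResidual
    rw [Subgroup.closure_le]
    intro g hg
    rw [SetLike.mem_coe, MonoidHom.mem_ker]
    obtain ⟨k, hk⟩ := hpq (δ g)
    have h1 : orderOf (δ g) ∣ p ^ k := orderOf_dvd_of_pow_eq_one hk
    have h2 : orderOf (δ g) ∣ orderOf g := orderOf_map_dvd δ g
    have h3 : orderOf (δ g) = 1 :=
      Nat.Coprime.eq_one_of_dvd (Nat.Coprime.pow_right k (Nat.Coprime.coprime_dvd_left h2 hg)) h1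
    exact orderOf_eq_one_iff.mp h3
  have hF : M' ≤ commutator H ⊔ L' := by
    intro m hm
    have hsup := sylow_sup_pResidual (P.subtype hPH)
    have hm' : m ∈ ((P.subtype hPH : Sylow p H) : Subgroup H) ⊔ Cfsg.pResidual p H :=
      hsup ▸ Subgroup.mem_top m
    rw [← SetLike.mem_coe, Subgroup.mul_normal] at hm'
    obtain ⟨x, hx, l, hl, rfl⟩ := hm'
    have hxM : x ∈ M' := by
      have := M'.mul_mem hm (M'.inv_mem (hLM hl))
      simpa using this
    have hxP : (x : G) ∈ (P : Subgroup G) := hx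
    obtain ⟨k, hk⟩ := P.isPGroup' ⟨(x : G), hxP⟩
    have hk' : (x : G) ^ p ^ k = 1 := by simpa using congrArg Subtype.val hk
    have hxc : (x : G) ∈ commutator G := mem_commutator_of_mem_pResidual (x : G) hxM k hk'
    have hxH : (x : G) ∈ ⁅H, H⁆ := hyp ⟨hxP, hxc⟩
    rw [← Subgroup.map_subtype_commutator] at hxH
    obtain ⟨y, hy, hyx⟩ := hxH
    have hyx' : y = x := Subtype.ext hyx
    rw [hyx'] at hy
    exact Subgroup.mul_mem_sup hy hl
  have hMM₁ : M' ≤ M₁ := by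
    intro m hm
    have h1 : m ∈ δ.ker := (sup_le hδcomm hδL) (hF hm)
    rw [MonoidHom.mem_ker, hδM m hm] at h1
    exact (QuotientGroup.eq_one_iff m).1 h1
  haveI : Group.IsNilpotent (H ⧸ L') := by
    have hpL : IsPGroup p (H ⧸ L') := by
      intro q
      obtain ⟨h, rfl⟩ := QuotientGroup.mk_surjective q
      obtain ⟨k, hk⟩ := pow_mem_pResidual p h
      exact ⟨k, by rw [← QuotientGroup.mk_pow]; exact (QuotientGroup.eq_one_iff _).mpr hk⟩
    exact hpL.isNilpotent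
  have hbar : M'.map (QuotientGroup.mk' L') ≤
      ⁅M'.map (QuotientGroup.mk' L'), (⊤ : Subgroup (H ⧸ L'))⁆ := by
    have h1 : M'.map (QuotientGroup.mk' L') ≤ M₁.map (QuotientGroup.mk' L') :=
      Subgroup.map_mono hMM₁
    have h2 : M₁.map (QuotientGroup.mk' L') =
        ⁅M'.map (QuotientGroup.mk' L'), (⊤ : Subgroup (H ⧸ L'))⁆ := by
      show (⁅M', (⊤ : Subgroup H)⁆ ⊔ L').map (QuotientGroup.mk' L') = _
      rw [Subgroup.map_sup, Subgroup.map_commutator, QuotientGroup.map_mk'_self, sup_bot_eq,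
        ← MonoidHom.range_eq_map, MonoidHom.range_eq_top.2 (QuotientGroup.mk'_surjective L')]
    rw [← h2]
    exact h1
  have hbot := eq_bot_of_le_commutator_top _ hbar
  intro m hm
  have h1 : (QuotientGroup.mk' L' m) ∈ M'.map (QuotientGroup.mk' L') :=
    Subgroup.mem_map_of_mem _ hm
  rw [hbot, Subgroup.mem_bot] at h1
  exact (QuotientGroup.eq_one_iff m).1 h1

end Tate2

end Cfsg.Agent.Lib.Helper2
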