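import Mathlib
import Cfsg.Agent.Lib.Helper98.U84Defs
import Cfsg.Agent.Lib.Helper47.InvSL

/-!
S5984, piece U84-EXMU: a norm-one element `μ` of the field with `q^2` elements with `μ^n = -1`.
-/

set_option autoImplicit false

namespace Cfsg.Agent.Lib.Helper98.U84

open Matrix Polynomial

theorem exists_norm_one_pow_eq_neg_one {F : Type*} [Field F] [Fintype F] {q n : ℕ}
    (hF : Fintype.card F = q ^ 2) (hq : Odd q) (hn : n ≠ 0)
    (hv : padicValNat 2 n < padicValNat 2 (q + 1)) :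
    ∃ μ : F, μ ^ (q + 1) = 1 ∧ μ ^ n = -1 := by
  have hq1 : 1 < q := by
    have h1 : 1 < Fintype.card F := Fintype.one_lt_card
    rw [hF] at h1
    by_contra hcon
    have h2 : q ≤ 1 := by omega
    have h3 : q ^ 2 ≤ 1 ^ 2 := Nat.pow_le_pow_left h2 2
    omega
  have hqm : q - 1 ≠ 0 := by omega
  have hsq : q ^ 2 - 1 = (q + 1) * (q - 1) := by
    have h0 := Nat.sq_sub_sq q 1
    simpa using h0
  have hv' : padicValNat 2 (n * (q - 1)) < padicValNat 2 (q ^ 2 - 1) := by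
    rw [hsq, padicValNat.mul hn hqm, padicValNat.mul (by omega : q + 1 ≠ 0) hqm]
    omega
  obtain ⟨ν, hν⟩ := Cfsg.Agent.Lib.Helper47.exists_pow_eq_neg_one hF (Nat.mul_ne_zero hn hqm) hv'
  have hν0 : ν ≠ 0 := by
    rintro rfl
    rw [zero_pow (Nat.mul_ne_zero hn hqm)] at hν
    exact one_ne_zero (neg_eq_zero.mp hν.symm)
  refine ⟨ν ^ (q - 1), ?_, ?_⟩
  · rw [← pow_mul, mul_comm, ← hsq, ← hF]
    exact FiniteField.pow_card_sub_one_eq_one ν hν0
  · rw [← pow_mul, mul_comm]; exact hν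

end Cfsg.Agent.Lib.Helper98.U84
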