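import Mathlib
import Cfsg.Prelude.Def_GeometricClasses
import Cfsg.Prelude.Def_LieClassical
import Cfsg.Agent.Lib.Helper47.GUSim
import Cfsg.Agent.Lib.Helper47.InvSL

/-!
S5982, piece UF-SLCONJ: from a `GL`-conjugate that is a scalar multiple of an isometry to an
`SL`-conjugate in the similarity group.
-/

set_option autoImplicit false

universe u

namespace Cfsg.Agent.Lib.Helper2.Uf

open Polynomial Matrix
open scoped MatrixGroups

-- PIECE SLCONJ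
theorem sl_conj_sim {F : Type*} [Field F] (q₀ n : ℕ) (f : (Fin n → F) → (Fin n → F) → F)
    (hf : Cfsg.Geo.IsUnitaryFormPow q₀ f) (x : GL (Fin n) F)
    (hx : x ∈ Cfsg.Geo.specialLinear (Fin n) F) (w : F) (hw : w ≠ 0)
    (A T A' : Matrix (Fin n) (Fin n) F) (hxA : (x : Matrix (Fin n) (Fin n) F) = w • A)
    (hT : IsUnit T.det) (hTA : T * A = A' * T)
    (hiso : ∀ u v, f (A' *ᵥ u) (A' *ᵥ v) = f u v)
    (hD : ∀ δ : F, δ ≠ 0 → ∃ Cm : Matrix (Fin n) (Fin n) F,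
      Cm * (x : Matrix (Fin n) (Fin n) F) = (x : Matrix (Fin n) (Fin n) F) * Cm ∧ Cm.det = δ) :
    ∃ g ∈ Cfsg.Geo.specialLinear (Fin n) F, g⁻¹ * x * g ∈ Cfsg.Geo.similarityGroup f := by
  obtain ⟨Tu, hTu⟩ : ∃ Tu : GL (Fin n) F, (Tu : Matrix (Fin n) (Fin n) F) = T :=
    (Matrix.isUnit_iff_isUnit_det T).mpr hT
  obtain ⟨Cm, hcomm, hdet⟩ := hD T.det hT.ne_zero
  obtain ⟨Cu, hCu⟩ : ∃ Cu : GL (Fin n) F, (Cu : Matrix (Fin n) (Fin n) F) = Cm :=
    (Matrix.isUnit_iff_isUnit_det Cm).mpr (hdet ▸ hT)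
  have hcu : Cu * x = x * Cu := by
    apply Units.ext
    rw [Units.val_mul, Units.val_mul, hCu]
    exact hcomm
  have hmem : ∀ h : GL (Fin n) F, (∃ c : Fˣ, ∀ u v,
      f ((h : Matrix (Fin n) (Fin n) F) *ᵥ u) ((h : Matrix (Fin n) (Fin n) F) *ᵥ v) = (c : F) * f u v) →
      h ∈ Cfsg.Geo.similarityGroup f := fun h hh => hh
  have hsr : ∀ (c : F) (a b : Fin n → F), f a (c • b) = c ^ q₀ * f a b := by
    intro c a b
    rw [hf.herm a (c • b), hf.smul_left, mul_pow, ← hf.herm a b]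
  have hy : ((Tu * x * Tu⁻¹ : GL (Fin n) F) : Matrix (Fin n) (Fin n) F) = w • A' := by
    rw [Units.val_mul, Units.val_mul, Matrix.coe_units_inv, hTu, hxA, Matrix.mul_smul,
      Matrix.smul_mul, hTA, Matrix.mul_nonsing_inv_cancel_right _ _ hT]
  have hg : (Cu * Tu⁻¹)⁻¹ * x * (Cu * Tu⁻¹) = Tu * x * Tu⁻¹ := by
    have e : (Cu * Tu⁻¹)⁻¹ * x * (Cu * Tu⁻¹) = Tu * (Cu⁻¹ * (x * Cu)) * Tu⁻¹ := by group
    rw [e, ← hcu, inv_mul_cancel_left]
  refine ⟨Cu * Tu⁻¹, ?_, ?_⟩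
  · have hd : Matrix.GeneralLinearGroup.det (Cu * Tu⁻¹) = 1 := by
      rw [map_mul, map_inv, mul_inv_eq_one]
      apply Units.ext
      rw [Matrix.GeneralLinearGroup.val_det_apply, Matrix.GeneralLinearGroup.val_det_apply,
        hCu, hTu, hdet]
    exact MonoidHom.mem_ker.mpr hd
  · rw [hg]
    apply hmem
    refine ⟨Units.mk0 (w * w ^ q₀) (mul_ne_zero hw (pow_ne_zero _ hw)), fun u v => ?_⟩
    rw [hy, Matrix.smul_mulVec, Matrix.smul_mulVec, hf.smul_left, hsr, hiso, Units.val_mk0]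
    ring

end Cfsg.Agent.Lib.Helper2.Uf
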