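import Cfsg.Agent.Lib.Helper22.W2Defs
import Cfsg.Agent.Lib.Helper83.Linear

/-!
# Project W2 (S4707, helper22), piece DEGA (helper2): the degree equation A.
-/

set_option autoImplicit false

namespace Cfsg.Agent.Lib.Helper2.W2

open Cfsg Cfsg.Agent.Lib.Helper83 Cfsg.Agent.Lib.Helper22.W2
open scoped ComplexConjugate

universe u

variable {G : Type u} [Group G] [Fintype G]

/-- PIECE DEGA -/
theorem degA [Fintype (IrrCharacter G)] (p : ℕ) [Fact p.Prime] (w : ℂ) (z : G) (κ : ℂ)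
    (hgram : ∀ v v' : ZMod p,
      ∑ χ : IrrCharacter G, fc p w z χ.1 v * conj (fc p w z χ.1 v') =
        κ + (if v = v' then 1 else 0) + (if v = -v' then 1 else 0))
    (hnat : ∀ (χ : IrrCharacter G) (u : ZMod p), ∃ n : ℕ, fc p w z χ.1 u = (n : ℂ))
    (hdeg : ∀ χ : IrrCharacter G, χ.1 1 = ∑ u : ZMod p, fc p w z χ.1 u)
    (v : ZMod p) (hv : v ≠ 0) :
    ∑ χ : IrrCharacter G, χ.1 1 * (fc p w z χ.1 v - fc p w z χ.1 0) = 0 := by
  have hconj : ∀ (χ : IrrCharacter G) (u : ZMod p),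
      conj (fc p w z χ.1 u) = fc p w z χ.1 u := by
    intro χ u
    obtain ⟨n, hn⟩ := hnat χ u
    rw [hn, Complex.conj_natCast]
  have hB : ∀ u v' : ZMod p, ∑ χ : IrrCharacter G, fc p w z χ.1 u * fc p w z χ.1 v' =
      κ + (if u = v' then 1 else 0) + (if u = -v' then 1 else 0) := by
    intro u v'
    rw [← hgram u v']
    apply Finset.sum_congr rfl
    intro χ _
    rw [hconj]
  have h1 : ∀ χ : IrrCharacter G, χ.1 1 * (fc p w z χ.1 v - fc p w z χ.1 0) =
      ∑ u : ZMod p, (fc p w z χ.1 u * fc p w z χ.1 v - fc p w z χ.1 u * fc p w z χ.1 0) := by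
    intro χ
    rw [hdeg χ, Finset.sum_mul]
    apply Finset.sum_congr rfl
    intro u _
    ring
  have e1 : ∑ χ : IrrCharacter G, χ.1 1 * (fc p w z χ.1 v - fc p w z χ.1 0) =
      ∑ χ : IrrCharacter G, ∑ u : ZMod p,
        (fc p w z χ.1 u * fc p w z χ.1 v - fc p w z χ.1 u * fc p w z χ.1 0) :=
    Finset.sum_congr rfl (fun χ _ => h1 χ)
  rw [e1, Finset.sum_comm]
  have h2 : ∀ u : ZMod p, ∑ χ : IrrCharacter G,
      (fc p w z χ.1 u * fc p w z χ.1 v - fc p w z χ.1 u * fc p w z χ.1 0) =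
      (((if u = v then 1 else 0) + (if u = -v then 1 else 0)) -
        ((if u = 0 then 1 else 0) + (if u = -0 then 1 else 0)) : ℂ) := by
    intro u
    rw [Finset.sum_sub_distrib, hB u v, hB u 0]
    ring
  have e2 : ∑ u : ZMod p, ∑ χ : IrrCharacter G,
      (fc p w z χ.1 u * fc p w z χ.1 v - fc p w z χ.1 u * fc p w z χ.1 0) =
      ∑ u : ZMod p, (((if u = v then 1 else 0) + (if u = -v then 1 else 0)) -
        ((if u = 0 then 1 else 0) + (if u = -0 then 1 else 0)) : ℂ) :=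
    Finset.sum_congr rfl (fun u _ => h2 u)
  rw [e2]
  simp [Finset.sum_sub_distrib, Finset.sum_add_distrib]

end Cfsg.Agent.Lib.Helper2.W2
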